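import Mathlib
import Cfsg.Agent.Lib.PGroups.Frobenius
import Cfsg.Agent.Lib.PGroups.Fixed

/-! Counting elements of a given order: `oc G m = #{g | orderOf g = m}`. -/

set_option autoImplicit false

namespace Cfsg.Agent.Lib.PGroups
namespace OrderCount

open Finset

/-- the number of elements of order `m`. -/
noncomputable def oc (G : Type*) [Group G] (m : ℕ) : ℕ := Nat.card {g : G // orderOf g = m}

variable {G : Type*} [Group G]

theorem oc_ne_zero_iff [Finite G] {m : ℕ} : oc G m ≠ 0 ↔ ∃ g : G, orderOf g = m := by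
  unfold oc
  rw [Nat.card_ne_zero]
  constructor
  · rintro ⟨⟨g, hg⟩, -⟩
    exact ⟨g, hg⟩
  · rintro ⟨g, hg⟩
    exact ⟨⟨⟨g, hg⟩⟩, inferInstance⟩

theorem oc_one : oc G 1 = 1 := by
  unfold oc
  rw [Nat.card_eq_one_iff_unique]
  refine ⟨⟨?_⟩, ⟨⟨1, orderOf_one⟩⟩⟩
  rintro ⟨a, ha⟩ ⟨b, hb⟩
  apply Subtype.ext
  show a = b
  rw [orderOf_eq_one_iff.mp ha, orderOf_eq_one_iff.mp hb]

theorem sol_eq_sum [Finite G] {n : ℕ} (hn : n ≠ 0) :
    Nat.card {g : G // g ^ n = 1} = ∑ d ∈ n.divisors, oc G d := by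
  classical
  have := Fintype.ofFinite G
  unfold oc
  simp only [Nat.card_eq_fintype_card, Fintype.card_subtype]
  rw [Finset.card_eq_sum_card_fiberwise (f := orderOf) (t := n.divisors)]
  · apply Finset.sum_congr rfl
    intro d hd
    congr 1
    ext g
    simp only [Finset.mem_filter, Finset.mem_univ, true_and]
    constructor
    · rintro ⟨-, h⟩
      exact h
    · intro h
      refine ⟨?_, h⟩
      rw [← orderOf_dvd_iff_pow_eq_one, h]
      exact Nat.dvd_of_mem_divisors hd
  · intro g hg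
    have hg' : g ^ n = 1 := by simpa using hg
    exact Nat.mem_divisors.mpr ⟨orderOf_dvd_of_pow_eq_one hg', hn⟩

theorem prime_dvd_sum {G : Type*} [Group G] [Finite G] {p n : ℕ} (hpG : p ∣ Nat.card G) (hpn : p ∣ n)
    (hn : n ≠ 0) : p ∣ ∑ d ∈ n.divisors, oc G d := by
  rw [← sol_eq_sum hn]
  have h1 := sol_eq_sol_gcd G n
  unfold sol at h1
  rw [h1]
  exact (Nat.dvd_gcd hpn hpG).trans (frobenius (Nat.gcd_dvd_right n (Nat.card G)))

theorem sum_mul_prime {p m : ℕ} (hp : p.Prime) (hm : m ≠ 0) (hpm : ¬ p ∣ m) (f : ℕ → ℕ) :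
    ∑ d ∈ (p * m).divisors, f d = ∑ d ∈ m.divisors, (f d + f (p * d)) := by
  classical
  have hU : (p * m).divisors = m.divisors ∪ m.divisors.image (fun d => p * d) := by
    ext d
    simp only [Nat.mem_divisors, Finset.mem_union, Finset.mem_image]
    constructor
    · rintro ⟨h1, -⟩
      obtain ⟨k1, k2, h3, h4, rfl⟩ := (Nat.dvd_mul).mp h1
      rcases (Nat.dvd_prime hp).mp h3 with rfl | rfl
      · left
        rw [one_mul]
        exact ⟨h4, hm⟩
      · right
        exact ⟨k2, ⟨h4, hm⟩, rfl⟩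
    · rintro (⟨h1, -⟩ | ⟨e, ⟨h1, -⟩, rfl⟩)
      · exact ⟨h1.mul_left p, mul_ne_zero hp.ne_zero hm⟩
      · exact ⟨Nat.mul_dvd_mul_left p h1, mul_ne_zero hp.ne_zero hm⟩
  have hD : Disjoint m.divisors (m.divisors.image (fun d => p * d)) := by
    rw [Finset.disjoint_left]
    intro d hd hd'
    obtain ⟨e, -, rfl⟩ := Finset.mem_image.mp hd'
    exact hpm ((Dvd.intro e rfl).trans (Nat.dvd_of_mem_divisors hd))
  rw [hU, Finset.sum_union hD, Finset.sum_image, ← Finset.sum_add_distrib]
  intro a _ b _ h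
  exact Nat.eq_of_mul_eq_mul_left hp.pos h

/-- the sum, cast to `ZMod p`. -/
theorem sum_zmod {p m : ℕ} (hp : p.Prime) (hm : m ≠ 0) (hpm : ¬ p ∣ m) [Finite G]
    (hpG : p ∣ Nat.card G) :
    ((∑ d ∈ m.divisors, (oc G d + oc G (p * d)) : ℕ) : ZMod p) = 0 := by
  rw [← sum_mul_prime hp hm hpm]
  exact (ZMod.natCast_eq_zero_iff _ _).mpr
    (prime_dvd_sum hpG (Dvd.intro m rfl) (mul_ne_zero hp.ne_zero hm))

theorem exists_commuting [Finite G] {p m : ℕ} (hp : p.Prime) {x : G} (hx : orderOf x = p)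
    (hnd : ¬ p ∣ oc G m) : ∃ y : G, orderOf y = m ∧ Commute x y := by
  haveI : Fact p.Prime := ⟨hp⟩
  let f : Function.End {g : G // orderOf g = m} := fun y => ⟨x * y * x⁻¹, by
    rw [orderOf_conj_eq]
    exact y.2⟩
  have hfpow : ∀ (n : ℕ) (y : {g : G // orderOf g = m}), ((f ^ n) y : G) = x ^ n * y * x⁻¹ ^ n := by
    intro n
    induction n with
    | zero =>
      intro y
      simp only [pow_zero, one_mul, mul_one]
      rfl
    | succ n ih =>
      intro y
      rw [pow_succ]
      show (((f ^ n) (f y) : {g : G // orderOf g = m}) : G) = _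
      rw [ih (f y)]
      show x ^ n * (x * y * x⁻¹) * x⁻¹ ^ n = _
      rw [pow_succ x, pow_succ' x⁻¹]
      group
  have hf : f ^ p ^ 1 = 1 := by
    funext y
    apply Subtype.ext
    rw [pow_one, hfpow, ← hx, inv_pow, pow_orderOf_eq_one]
    simp only [one_mul, inv_one, mul_one]
    rfl
  obtain ⟨y, hy⟩ := exists_fixed_of_pow hf hnd
  refine ⟨y, y.2, ?_⟩
  have h1 : x * (y : G) * x⁻¹ = y := congrArg Subtype.val hy
  exact mul_inv_eq_iff_eq_mul.mp h1

theorem two_mul_oc_le [Finite G] {p m : ℕ} (hp : p.Prime) (hm : 3 ≤ m) (hc : ¬ p ∣ m)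
    (hnd : ¬ p ∣ oc G m) : 2 * oc G p ≤ oc G (p * m) := by
  classical
  have hex : ∀ x : {g : G // orderOf g = p}, ∃ y : G, orderOf y = m ∧ Commute (x : G) y :=
    fun x => exists_commuting hp x.2 hnd
  choose φ hφ1 hφ2 using hex
  have hcop : p.Coprime m := (Nat.Prime.coprime_iff_not_dvd hp).mpr hc
  have hord : ∀ (x : {g : G // orderOf g = p}) (y : G), orderOf y = m → Commute (x : G) y →
      orderOf ((x : G) * y) = p * m := by
    intro x y hy hxy
    rw [hxy.orderOf_mul_eq_mul_orderOf_of_coprime (by rw [x.2, hy]; exact hcop), x.2, hy]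
  let F : {g : G // orderOf g = p} × Bool → {g : G // orderOf g = p * m} := fun z =>
    if z.2 then ⟨(z.1 : G) * φ z.1, hord z.1 _ (hφ1 _) (hφ2 _)⟩
    else ⟨(z.1 : G) * (φ z.1)⁻¹, hord z.1 _ (by rw [orderOf_inv]; exact hφ1 _) (hφ2 _).inv_right⟩
  have hm1 : 1 < p := hp.one_lt
  obtain ⟨k, -, hk⟩ := Nat.exists_mul_mod_eq_one_of_coprime hcop.symm hm1
  have hrec : ∀ (x : {g : G // orderOf g = p}) (y : G), orderOf y = m → Commute (x : G) y →
      ((x : G) * y) ^ (m * k) = x := by
    intro x y hy hxy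
    have hy' : y ^ m = 1 := by rw [← hy]; exact pow_orderOf_eq_one y
    rw [hxy.mul_pow, pow_mul y, hy', one_pow, mul_one]
    have h2 : (m * k) % orderOf (x : G) = 1 := by rw [x.2]; exact hk
    rw [← pow_mod_orderOf, h2, pow_one]
  have hF1 : ∀ z, ((F z : {g : G // orderOf g = p * m}) : G) ^ (m * k) = z.1 := by
    rintro ⟨x, b⟩
    cases b
    · exact hrec x _ (by rw [orderOf_inv]; exact hφ1 _) (hφ2 _).inv_right
    · exact hrec x _ (hφ1 _) (hφ2 _)
  have hinj : Function.Injective F := by
    rintro ⟨x₁, b₁⟩ ⟨x₂, b₂⟩ h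
    have h1 : x₁ = x₂ := by
      have h2 := hF1 (x₁, b₁)
      have h3 := hF1 (x₂, b₂)
      rw [h] at h2
      exact Subtype.ext (h2.symm.trans h3)
    subst h1
    cases b₁ <;> cases b₂
    · rfl
    · exfalso
      have h2 : (x₁ : G) * (φ x₁)⁻¹ = (x₁ : G) * φ x₁ := congrArg Subtype.val h
      have h3 : (φ x₁)⁻¹ = φ x₁ := mul_left_cancel h2
      have h4 : φ x₁ ^ 2 = 1 := by
        rw [pow_two]
        nth_rewrite 1 [← h3]
        exact inv_mul_cancel _
      have h5 := orderOf_dvd_of_pow_eq_one h4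
      rw [hφ1] at h5
      have := Nat.le_of_dvd (by norm_num) h5
      omega
    · exfalso
      have h2 : (x₁ : G) * φ x₁ = (x₁ : G) * (φ x₁)⁻¹ := congrArg Subtype.val h
      have h3 : φ x₁ = (φ x₁)⁻¹ := mul_left_cancel h2
      have h4 : φ x₁ ^ 2 = 1 := by
        rw [pow_two]
        nth_rewrite 2 [h3]
        exact mul_inv_cancel _
      have h5 := orderOf_dvd_of_pow_eq_one h4
      rw [hφ1] at h5
      have := Nat.le_of_dvd (by norm_num) h5
      omega
    · rfl
  have h1 := Nat.card_le_card_of_injective F hinj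
  rw [Nat.card_prod] at h1
  have h2 : Nat.card Bool = 2 := by simp
  rw [h2, mul_comm] at h1
  exact h1

/-- If there is a unique involution then `c(2m) = c(m)` for odd `m`. -/
theorem oc_two_mul [Finite G] (h2 : oc G 2 = 1) {m : ℕ} (hm : Odd m) : oc G (2 * m) = oc G m := by
  classical
  obtain ⟨z, hz⟩ := oc_ne_zero_iff.mp (by rw [h2]; norm_num : oc G 2 ≠ 0)
  have hu : ∀ w : G, orderOf w = 2 → w = z := by
    intro w hw
    have h3 : Nat.card {g : G // orderOf g = 2} = 1 := h2
    rw [Nat.card_eq_one_iff_unique] at h3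
    have := h3.1.elim ⟨w, hw⟩ ⟨z, hz⟩
    exact congrArg Subtype.val this
  have hzc : ∀ g : G, Commute g z := by
    intro g
    have h3 := hu (g * z * g⁻¹) (by rw [orderOf_conj_eq]; exact hz)
    exact mul_inv_eq_iff_eq_mul.mp h3
  have hzz : z ^ 2 = 1 := by rw [← hz]; exact pow_orderOf_eq_one z
  have hzm : z ^ m = z := by
    obtain ⟨k, rfl⟩ := hm
    rw [pow_succ, pow_mul, hzz, one_pow, one_mul]
  have h2c : (2 : ℕ).Coprime m := (Nat.coprime_two_left).mpr hm
  unfold oc
  apply Nat.card_congr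
  refine ⟨fun w => ⟨(w : G) * z, ?_⟩, fun x => ⟨(x : G) * z, ?_⟩, ?_, ?_⟩
  · -- order of `w z`
    have h3 : ((w : G) * z) ^ m = 1 := by
      rw [(hzc (w : G)).mul_pow, hzm]
      have h4 : (w : G) ^ m = z := by
        apply hu
        apply orderOf_eq_prime
        · have hw2 : orderOf (w : G) = 2 * m := w.2
          have h44 : (w : G) ^ (m * 2) = 1 :=
            orderOf_dvd_iff_pow_eq_one.mp (by rw [hw2]; exact dvd_of_eq (mul_comm _ _))
          rw [← pow_mul]
          exact h44
        · intro h5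
          have h6 := orderOf_dvd_of_pow_eq_one h5
          rw [w.2] at h6
          have := Nat.le_of_dvd (Nat.pos_of_ne_zero (by
            rintro rfl
            simp at hm)) h6
          have hm0 : 0 < m := Nat.pos_of_ne_zero (by
            rintro rfl
            simp at hm)
          omega
      rw [h4, ← pow_two, hzz]
    have h5 : orderOf ((w : G) * z) ∣ m := orderOf_dvd_of_pow_eq_one h3
    have h6 : orderOf (((w : G) * z) * z) = orderOf ((w : G) * z) * 2 := by
      have h7 : (orderOf ((w : G) * z)).Coprime (orderOf z) := by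
        rw [hz]
        exact (h2c.coprime_dvd_right h5).symm
      rw [(hzc _).orderOf_mul_eq_mul_orderOf_of_coprime h7, hz]
    have h7 : ((w : G) * z) * z = w := by
      rw [mul_assoc, ← pow_two, hzz, mul_one]
    have hw2 : orderOf (w : G) = 2 * m := w.2
    rw [h7] at h6
    have h8 := hw2.symm.trans h6
    omega
  · have h7 : (orderOf (x : G)).Coprime (orderOf z) := by
      rw [x.2, hz]
      exact h2c.symm
    rw [(hzc _).orderOf_mul_eq_mul_orderOf_of_coprime h7, x.2, hz]
    ring
  · intro w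
    apply Subtype.ext
    show (w : G) * z * z = w
    rw [mul_assoc, ← pow_two, hzz, mul_one]
  · intro x
    apply Subtype.ext
    show (x : G) * z * z = x
    rw [mul_assoc, ← pow_two, hzz, mul_one]

/-- `φ(m)` divides the number of elements of order `m`. -/
theorem totient_dvd_oc [Finite G] (m : ℕ) : m.totient ∣ oc G m := by
  classical
  have := Fintype.ofFinite G
  unfold oc
  rw [Nat.card_eq_fintype_card, Fintype.card_subtype]
  rw [Finset.card_eq_sum_card_fiberwise (f := fun g => (Subgroup.zpowers g : Subgroup G))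
    (t := Finset.univ.image (fun g : {g : G // orderOf g = m} => (Subgroup.zpowers (g : G) : Subgroup G)))]
  · apply Finset.dvd_sum
    intro C hC
    obtain ⟨⟨g₀, hg₀⟩, -, rfl⟩ := Finset.mem_image.mp hC
    haveI : Fintype (Subgroup.zpowers g₀) := Fintype.ofFinite _
    have hcard : Nat.card (Subgroup.zpowers g₀) = m := by
      rw [Nat.card_zpowers, hg₀]
    have htot := IsCyclic.card_orderOf_eq_totient (α := Subgroup.zpowers g₀) (d := m)
      (by rw [Nat.card_eq_fintype_card] at hcard; rw [hcard])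
    have hEq : ((Finset.univ.filter (fun g : G => orderOf g = m)).filter
        (fun g => (Subgroup.zpowers g : Subgroup G) = Subgroup.zpowers g₀)).card =
        (Finset.univ.filter (fun a : Subgroup.zpowers g₀ => orderOf a = m)).card := by
      symm
      apply Finset.card_bij (s := Finset.univ.filter (fun a : Subgroup.zpowers g₀ => orderOf a = m))
        (fun a _ => (a : G))
      · intro a ha
        have ha' : orderOf a = m := by simpa using ha
        simp only [Finset.mem_filter, Finset.mem_univ, true_and]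
        have hoa : orderOf (a : G) = m := by rw [Subgroup.orderOf_coe]; exact ha'
        refine ⟨hoa, ?_⟩
        apply Subgroup.eq_of_le_of_card_ge
        · exact Subgroup.zpowers_le.mpr a.2
        · rw [Nat.card_zpowers, Nat.card_zpowers, hoa, hg₀]
      · intro a _ b _ h
        exact Subtype.ext h
      · intro g hg
        simp only [Finset.mem_filter, Finset.mem_univ, true_and] at hg
        refine ⟨⟨g, ?_⟩, ?_, rfl⟩
        · rw [← hg.2]
          exact Subgroup.mem_zpowers g
        · simp only [Finset.mem_filter, Finset.mem_univ, true_and]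
          rw [Subgroup.orderOf_mk]
          exact hg.1
    rw [hEq, htot]
  · intro g hg
    have hg' : orderOf g = m := by simpa using hg
    exact Finset.mem_image.mpr ⟨⟨g, hg'⟩, Finset.mem_univ _, rfl⟩

end OrderCount
end Cfsg.Agent.Lib.PGroups
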