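import Mathlib
import Cfsg.Agent.Lib.PGroups.OrderCount
import Cfsg.Agent.Lib.Char.Burnside

/-! Arithmetic of the numbers `oc G m`: two odd primes cannot share the value `oc G p` when at most
two values occur for `m ≥ 3` and there is at most one involution. -/

set_option autoImplicit false

namespace Cfsg.Agent.Lib.PGroups
namespace OrderCount

open Finset

variable {G : Type*} [Group G] [Finite G]

theorem oc_prime_ne_zero {p : ℕ} (hp : p.Prime) (hpG : p ∣ Nat.card G) : oc G p ≠ 0 := by
  haveI : Fact p.Prime := ⟨hp⟩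
  obtain ⟨x, hx⟩ := exists_prime_orderOf_dvd_card' (G := G) p hpG
  exact oc_ne_zero_iff.mpr ⟨x, hx⟩

theorem one_add_oc_prime {p : ℕ} (hp : p.Prime) (hpG : p ∣ Nat.card G) :
    ((oc G p : ℕ) : ZMod p) = -1 := by
  have h := sum_zmod (G := G) (m := 1) hp one_ne_zero
    (fun h => hp.one_lt.ne' (Nat.dvd_one.mp h)) hpG
  simp only [Nat.divisors_one, Finset.sum_singleton, mul_one, oc_one, Nat.cast_add,
    Nat.cast_one] at h
  linear_combination h

theorem sum_pair {p q : ℕ} (hp : p.Prime) (hq : q.Prime) (hpq : p ≠ q) (hpG : p ∣ Nat.card G) :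
    (1 : ZMod p) + (oc G p : ZMod p) + (oc G q : ZMod p) + (oc G (p * q) : ZMod p) = 0 := by
  have h := sum_zmod (G := G) (m := q) hp hq.ne_zero
    (fun h => hpq ((Nat.prime_dvd_prime_iff_eq hp hq).mp h)) hpG
  rw [hq.divisors, Finset.sum_pair hq.one_lt.ne] at h
  simp only [mul_one, oc_one, Nat.cast_add, Nat.cast_one] at h
  linear_combination h

theorem sum_sq {r : ℕ} (hr : r.Prime) (hrG : r ∣ Nat.card G) :
    (1 : ZMod r) + (oc G r : ZMod r) + (oc G (r ^ 2) : ZMod r) = 0 := by
  have h := prime_dvd_sum (G := G) hrG (Dvd.intro_left (r ^ 1) (by ring : r ^ 1 * r = r ^ 2))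
    (pow_ne_zero 2 hr.ne_zero)
  rw [Nat.sum_divisors_prime_pow hr] at h
  simp only [Finset.sum_range_succ, Finset.sum_range_zero, pow_zero, pow_one, oc_one, zero_add] at h
  have h2 := (ZMod.natCast_eq_zero_iff _ _).mpr h
  simpa using h2

theorem sum_four {p : ℕ} (hp : p.Prime) (hp2 : p ≠ 2) (hpG : p ∣ Nat.card G) :
    (1 : ZMod p) + (oc G p : ZMod p) + (oc G 2 : ZMod p) + (oc G (p * 2) : ZMod p) +
      (oc G 4 : ZMod p) + (oc G (p * 4) : ZMod p) = 0 := by
  have hnd : ¬ p ∣ 4 := by
    intro h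
    have h2 : p ∣ 2 ^ 2 := by simpa using h
    exact hp2 ((Nat.prime_dvd_prime_iff_eq hp Nat.prime_two).mp (hp.dvd_of_dvd_pow h2))
  have h := sum_zmod (G := G) (m := 4) hp (by norm_num) hnd hpG
  have hd : (Nat.divisors 4) = {1, 2, 4} := by decide
  rw [hd, Finset.sum_insert (by decide), Finset.sum_insert (by decide), Finset.sum_singleton] at h
  simp only [mul_one, oc_one, Nat.cast_add, Nat.cast_one] at h
  linear_combination h

theorem sum_four_pq {p q : ℕ} (hp : p.Prime) (hq : q.Prime) (hp2 : p ≠ 2) (hq2 : q ≠ 2) (hpq : p ≠ q)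
    (hpG : p ∣ Nat.card G) :
    (1 : ZMod p) + (oc G p : ZMod p) + (oc G q : ZMod p) + (oc G (p * q) : ZMod p) +
    ((oc G 2 : ZMod p) + (oc G (p * 2) : ZMod p) + (oc G (q * 2) : ZMod p) +
      (oc G (p * (q * 2)) : ZMod p)) +
    ((oc G 4 : ZMod p) + (oc G (p * 4) : ZMod p) + (oc G (q * 4) : ZMod p) +
      (oc G (p * (q * 4)) : ZMod p)) = 0 := by
  have hnd : ∀ {r : ℕ}, r.Prime → r ≠ 2 → ¬ r ∣ 4 := by
    intro r hr hr2 h
    have h2 : r ∣ 2 ^ 2 := by simpa using h
    exact hr2 ((Nat.prime_dvd_prime_iff_eq hr Nat.prime_two).mp (hr.dvd_of_dvd_pow h2))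
  have hpq4 : ¬ p ∣ q * 4 := by
    intro h
    rcases (Nat.Prime.dvd_mul hp).mp h with h | h
    · exact hpq ((Nat.prime_dvd_prime_iff_eq hp hq).mp h)
    · exact hnd hp hp2 h
  have h := sum_zmod (G := G) (m := q * 4) hp (mul_ne_zero hq.ne_zero (by norm_num)) hpq4 hpG
  rw [sum_mul_prime hq (by norm_num) (hnd hq hq2) (fun d => oc G d + oc G (p * d))] at h
  have hd : (Nat.divisors 4) = {1, 2, 4} := by decide
  rw [hd, Finset.sum_insert (by decide), Finset.sum_insert (by decide), Finset.sum_singleton] at h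
  simp only [mul_one, oc_one, Nat.cast_add, Nat.cast_one] at h
  linear_combination h

theorem oc_pow_eq_zero {r k : ℕ} (hr : r.Prime) (h2 : oc G (r ^ 2) = 0) (hk : 2 ≤ k) :
    oc G (r ^ k) = 0 := by
  by_contra hne
  obtain ⟨g, hg⟩ := oc_ne_zero_iff.mp hne
  apply (oc_ne_zero_iff (G := G)).mpr _ h2
  refine ⟨g ^ r ^ (k - 2), ?_⟩
  have hd : r ^ (k - 2) ∣ orderOf g := by
    rw [hg]
    exact pow_dvd_pow _ (by omega)
  rw [orderOf_pow_of_dvd (pow_ne_zero _ hr.ne_zero) hd, hg]
  have e : r ^ k = r ^ 2 * r ^ (k - 2) := by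
    rw [← pow_add]
    congr 1
    omega
  rw [e, Nat.mul_div_cancel _ (pow_pos hr.pos _)]

theorem sum_pow_eq {r v : ℕ} (hr : r.Prime) (h2 : oc G (r ^ 2) = 0) (hv : 1 ≤ v) :
    ∑ i ∈ Finset.range (v + 1), oc G (r ^ i) = 1 + oc G r := by
  induction v, hv using Nat.le_induction with
  | base =>
    simp only [Finset.sum_range_succ, Finset.sum_range_zero, pow_zero, pow_one, oc_one, zero_add]
  | succ n hn ih =>
    rw [Finset.sum_range_succ, ih, oc_pow_eq_zero hr h2 (by omega), add_zero]

/-- The part of the order prime to `2` divides `1 + c`, if all odd primes have exponent-prime Sylow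
subgroups with the same count `c`. -/
theorem odd_part_dvd {a : ℕ} (hall : ∀ r : ℕ, r.Prime → r ≠ 2 → r ∣ Nat.card G → oc G r = a ∧ oc G (r ^ 2) = 0) :
    Nat.card G / 2 ^ (Nat.card G).factorization 2 ∣ 1 + a := by
  have hn0 : Nat.card G ≠ 0 := Nat.card_pos.ne'
  have hM0 : Nat.card G / 2 ^ (Nat.card G).factorization 2 ≠ 0 :=
    (Nat.ordCompl_pos 2 hn0).ne'
  rw [Nat.dvd_iff_prime_pow_dvd_dvd]
  intro r k hr hrk
  rcases Nat.eq_zero_or_pos k with rfl | hk
  · simp
  have hrM : r ∣ Nat.card G / 2 ^ (Nat.card G).factorization 2 := (dvd_pow_self r hk.ne').trans hrk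
  have hr2 : r ≠ 2 := by
    rintro rfl
    exact Nat.not_dvd_ordCompl Nat.prime_two hn0 hrM
  have hMG : Nat.card G / 2 ^ (Nat.card G).factorization 2 ∣ Nat.card G :=
    Nat.ordCompl_dvd _ _
  have hrG : r ∣ Nat.card G := hrM.trans hMG
  obtain ⟨h1, h2⟩ := hall r hr hr2 hrG
  have hrkG : r ^ k ∣ Nat.card G := hrk.trans hMG
  have hf := frobenius hrkG
  rw [sol_eq_sum (pow_ne_zero k hr.ne_zero), Nat.sum_divisors_prime_pow hr, sum_pow_eq hr h2 hk, h1] at hf
  exact hf

/-- Two odd primes with the same count: impossible. -/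
theorem no_same_value {a b : ℕ} (hval : ∀ m, 3 ≤ m → oc G m = 0 ∨ oc G m = a ∨ oc G m = b)
    (h2 : oc G 2 ≤ 1) {p q : ℕ} (hp : p.Prime) (hq : q.Prime) (hp2 : p ≠ 2) (hq2 : q ≠ 2)
    (hpq : p ≠ q) (hpG : p ∣ Nat.card G) (hqG : q ∣ Nat.card G) (hcp : oc G p = a)
    (hcq : oc G q = a) : False := by
  haveI : Fact p.Prime := ⟨hp⟩
  haveI : Fact q.Prime := ⟨hq⟩
  have h3 : ∀ {r : ℕ}, r.Prime → r ≠ 2 → 3 ≤ r := fun hr hr2 => by
    have := hr.two_le
    omega
  have hp3 := h3 hp hp2
  have hq3 := h3 hq hq2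
  have ha0 : a ≠ 0 := hcp ▸ oc_prime_ne_zero hp hpG
  -- the basic congruences
  have hneg : ∀ {r : ℕ}, r.Prime → r ≠ 2 → (1 : ZMod r) ≠ -1 := by
    intro r hr hr2 h
    haveI : Fact (2 < r) := ⟨by have := hr.two_le; omega⟩
    exact ZMod.neg_one_ne_one h.symm
  have hone0 : ∀ {r : ℕ}, r.Prime → (1 : ZMod r) ≠ 0 := by
    intro r hr
    haveI : Fact r.Prime := ⟨hr⟩
    exact one_ne_zero
  have hneg0 : ∀ {r : ℕ}, r.Prime → (-1 : ZMod r) ≠ 0 := by
    intro r hr
    haveI : Fact r.Prime := ⟨hr⟩
    exact neg_ne_zero.mpr one_ne_zero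
  -- pairs with the same value
  have hpair : ∀ {r s : ℕ}, r.Prime → s.Prime → r ≠ s → r ≠ 2 → r ∣ Nat.card G → oc G r = a → oc G s = a →
      ((oc G (r * s) : ℕ) : ZMod r) = 1 := by
    intro r s hr hs hrs hr2 hrG hcr hcs
    have h1 := sum_pair (G := G) hr hs hrs hrG
    have h4 := one_add_oc_prime (G := G) hr hrG
    rw [hcs, ← hcr, h4] at h1
    linear_combination h1
  have hpqc : ((oc G (p * q) : ℕ) : ZMod p) = 1 := hpair hp hq hpq hp2 hpG hcp hcq
  have hqpc : ((oc G (q * p) : ℕ) : ZMod q) = 1 := hpair hq hp hpq.symm hq2 hqG hcq hcp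
  have hap : ((a : ℕ) : ZMod p) = -1 := hcp ▸ one_add_oc_prime hp hpG
  have hmul3 : ∀ {r s : ℕ}, 3 ≤ r → s.Prime → 3 ≤ r * s := fun hr hs =>
    le_trans hr (Nat.le_mul_of_pos_right _ hs.pos)
  -- the value `oc G (p * q)` is `b`
  have hbval : oc G (p * q) = b := by
    rcases hval (p * q) (hmul3 hp3 hq) with h | h | h
    · rw [h] at hpqc
      exact absurd hpqc.symm (by simpa using hone0 hp)
    · rw [h, hap] at hpqc
      exact absurd hpqc.symm (hneg hp hp2)
    · exact h
  have hb0 : b ≠ 0 := by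
    rw [← hbval]
    intro h
    rw [h] at hpqc
    exact absurd hpqc.symm (by simpa using hone0 hp)
  have hbp : ((b : ℕ) : ZMod p) = 1 := by rw [← hbval]; exact hpqc
  -- every odd prime has the value `a`
  have hall : ∀ r : ℕ, r.Prime → r ≠ 2 → r ∣ Nat.card G → oc G r = a := by
    intro r hr hr2 hrG
    by_cases hrp : r = p
    · rw [hrp]; exact hcp
    by_cases hrq : r = q
    · rw [hrq]; exact hcq
    rcases hval r (h3 hr hr2) with h | h | h
    · exact absurd h (oc_prime_ne_zero hr hrG)
    · exact h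
    · exfalso
      have hpr : p ≠ r := fun e => hrp e.symm
      have hnd : ¬ p ∣ oc G r := by
        intro hd
        have := (ZMod.natCast_eq_zero_iff _ _).mpr hd
        rw [h, hbp] at this
        exact hone0 hp this
      have hndr : ¬ p ∣ r := fun hd => hpr ((Nat.prime_dvd_prime_iff_eq hp hr).mp hd)
      have hle := two_mul_oc_le (G := G) hp (h3 hr hr2) hndr hnd
      have h1 := sum_pair (G := G) hp hr hpr hpG
      rw [hcp, h, hap, hbp] at h1
      have h5 : ((oc G (p * r) : ℕ) : ZMod p) = -1 := by linear_combination h1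
      rcases hval (p * r) (hmul3 hp3 hr) with h6 | h6 | h6
      · rw [h6] at h5
        exact hneg0 hp (by simpa using h5.symm)
      · rw [hcp, h6] at hle
        omega
      · rw [h6, hbp] at h5
        exact hneg hp hp2 h5
  -- `b ≡ 1` modulo every odd prime
  have hbr : ∀ r : ℕ, r.Prime → r ≠ 2 → r ∣ Nat.card G → ((b : ℕ) : ZMod r) = 1 := by
    intro r hr hr2 hrG
    by_cases hrp : r = p
    · rw [hrp]; exact hbp
    have h1 : ((oc G (r * p) : ℕ) : ZMod r) = 1 :=
      hpair hr hp hrp hr2 hrG (hall r hr hr2 hrG) hcp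
    have h4 : ((oc G (p * r) : ℕ) : ZMod p) = 1 :=
      hpair hp hr (fun e => hrp e.symm) hp2 hpG hcp (hall r hr hr2 hrG)
    rcases hval (r * p) (hmul3 (h3 hr hr2) hp) with h | h | h
    · rw [h] at h1
      exact absurd h1.symm (by simpa using hone0 hr)
    · rw [mul_comm, h, hap] at h4
      exact absurd h4.symm (hneg hp hp2)
    · rwa [h] at h1
  -- exponents
  have hexp : ∀ r : ℕ, r.Prime → r ≠ 2 → r ∣ Nat.card G → oc G r = a ∧ oc G (r ^ 2) = 0 := by
    intro r hr hr2 hrG
    have hcr := hall r hr hr2 hrG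
    refine ⟨hcr, ?_⟩
    have har : ((a : ℕ) : ZMod r) = -1 := hcr ▸ one_add_oc_prime hr hrG
    have h1 := sum_sq (G := G) hr hrG
    rw [hcr, har] at h1
    have h4 : ((oc G (r ^ 2) : ℕ) : ZMod r) = 0 := by linear_combination h1
    rcases hval (r ^ 2) (by nlinarith [h3 hr hr2]) with h | h | h
    · exact h
    · rw [h, har] at h4
      exact absurd h4 (hneg0 hr)
    · rw [h, hbr r hr hr2 hrG] at h4
      exact absurd h4 (hone0 hr)
  have hMdvd := odd_part_dvd hexp
  set M := Nat.card G / 2 ^ (Nat.card G).factorization 2 with hM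
  have hn0 : Nat.card G ≠ 0 := Nat.card_pos.ne'
  have hMG : 2 ^ (Nat.card G).factorization 2 * M = Nat.card G :=
    Nat.ordProj_mul_ordCompl_eq_self _ _
  have hpM : p ∣ M := by
    have hcop : p.Coprime (2 ^ (Nat.card G).factorization 2) :=
      ((Nat.coprime_primes hp Nat.prime_two).mpr hp2).pow_right _
    rw [← hMG] at hpG
    exact hcop.dvd_of_dvd_mul_left hpG
  have hqM : q ∣ M := by
    have hcop : q.Coprime (2 ^ (Nat.card G).factorization 2) :=
      ((Nat.coprime_primes hq Nat.prime_two).mpr hq2).pow_right _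
    rw [← hMG] at hqG
    exact hcop.dvd_of_dvd_mul_left hqG
  have hMpos : 0 < M := Nat.ordCompl_pos 2 hn0
  have hMle : M ≤ 1 + a := Nat.le_of_dvd (by omega) hMdvd
  have hMod : ¬ 2 ∣ M := Nat.not_dvd_ordCompl Nat.prime_two hn0
  have hpqM : p * q ∣ M := Nat.Coprime.mul_dvd_of_dvd_of_dvd
    ((Nat.coprime_primes hp hq).mpr hpq) hpM hqM
  by_cases h4G : 4 ∣ Nat.card G
  · -- the quaternion case
    have h2G : 2 ∣ Nat.card G := (by norm_num : (2 : ℕ) ∣ 4).trans h4G
    have hc2 : oc G 2 = 1 := le_antisymm h2 (Nat.pos_of_ne_zero (oc_prime_ne_zero Nat.prime_two h2G))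
    have hf := frobenius h4G
    rw [sol_eq_sum (by norm_num)] at hf
    have hd : (Nat.divisors 4) = {1, 2, 4} := by decide
    rw [hd, Finset.sum_insert (by decide), Finset.sum_insert (by decide), Finset.sum_singleton,
      oc_one, hc2] at hf
    have hc4ne : oc G 4 ≠ 0 := by
      intro h
      rw [h] at hf
      omega
    have hmul2 : ∀ {r : ℕ}, r.Prime → r ≠ 2 → oc G (r * 2) = oc G r := by
      intro r hr hr2
      rw [mul_comm]
      exact oc_two_mul hc2 (hr.odd_of_ne_two hr2)
    have hc4a : oc G 4 = a := by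
      rcases hval 4 (by norm_num) with h | h | h
      · exact absurd h hc4ne
      · exact h
      · exfalso
        have hnd : ¬ p ∣ oc G 4 := by
          intro hd
          have := (ZMod.natCast_eq_zero_iff _ _).mpr hd
          rw [h, hbp] at this
          exact hone0 hp this
        have hndp : ¬ p ∣ 4 := by
          intro h
          have h2' : p ∣ 2 ^ 2 := by simpa using h
          exact hp2 ((Nat.prime_dvd_prime_iff_eq hp Nat.prime_two).mp (hp.dvd_of_dvd_pow h2'))
        have hle := two_mul_oc_le (G := G) hp (by norm_num) hndp hnd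
        have h1 := sum_four (G := G) hp hp2 hpG
        rw [hmul2 hp hp2, hc2, hcp, h, hap, hbp] at h1
        have h5 : ((oc G (p * 4) : ℕ) : ZMod p) = -1 := by
          push_cast at h1
          linear_combination h1
        rcases hval (p * 4) (by omega) with h6 | h6 | h6
        · rw [h6] at h5
          exact hneg0 hp (by simpa using h5.symm)
        · rw [hcp, h6] at hle
          omega
        · rw [h6, hbp] at h5
          exact hneg hp hp2 h5
    have haq : ((a : ℕ) : ZMod q) = -1 := hcq ▸ one_add_oc_prime hq hqG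
    have hbq : ((b : ℕ) : ZMod q) = 1 := hbr q hq hq2 hqG
    -- `oc G (r * 4) = b`
    have h4b : ∀ {r : ℕ}, r.Prime → r ≠ 2 → r ∣ Nat.card G → oc G r = a → oc G (r * 4) = b := by
      intro r hr hr2 hrG hcr
      have har : ((a : ℕ) : ZMod r) = -1 := hcr ▸ one_add_oc_prime hr hrG
      have h1 := sum_four (G := G) hr hr2 hrG
      rw [hmul2 hr hr2, hc2, hcr, hc4a, har] at h1
      have h5 : ((oc G (r * 4) : ℕ) : ZMod r) = 1 := by
        push_cast at h1
        linear_combination h1
      rcases hval (r * 4) (by have := hr.two_le; omega) with h6 | h6 | h6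
      · rw [h6] at h5
        exact absurd h5.symm (by simpa using hone0 hr)
      · rw [h6, har] at h5
        exact absurd h5.symm (hneg hr hr2)
      · exact h6
    have h1 := sum_four_pq (G := G) hp hq hp2 hq2 hpq hpG
    have e1 : oc G (p * (q * 2)) = oc G (p * q) := by
      have : p * (q * 2) = 2 * (p * q) := by ring
      rw [this]
      exact oc_two_mul hc2 ((hp.odd_of_ne_two hp2).mul (hq.odd_of_ne_two hq2))
    rw [e1, hmul2 hp hp2, hmul2 hq hq2, hc2, hcp, hcq, hbval, hc4a, h4b hp hp2 hpG hcp,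
      h4b hq hq2 hqG hcq, hap, hbp] at h1
    have h5 : ((oc G (p * (q * 4)) : ℕ) : ZMod p) = -1 := by
      push_cast at h1
      linear_combination h1
    have hval12 : oc G (p * (q * 4)) = a := by
      rcases hval (p * (q * 4)) (by
        have : 1 ≤ q * 4 := by have := hq.pos; omega
        nlinarith) with h6 | h6 | h6
      · rw [h6] at h5
        exact absurd (by simpa using h5.symm) (hneg0 hp)
      · exact h6
      · rw [h6, hbp] at h5
        exact absurd h5 (hneg hp hp2)
    -- `4 ∣ a`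
    have htot := totient_dvd_oc (G := G) (p * (q * 4))
    rw [hval12] at htot
    have hcop1 : p.Coprime (q * 4) := by
      rw [Nat.coprime_mul_iff_right]
      refine ⟨(Nat.coprime_primes hp hq).mpr hpq, ?_⟩
      have := ((Nat.coprime_primes hp Nat.prime_two).mpr hp2).pow_right 2
      simpa using this
    have hcop2 : q.Coprime 4 := by
      have := ((Nat.coprime_primes hq Nat.prime_two).mpr hq2).pow_right 2
      simpa using this
    rw [Nat.totient_mul hcop1, Nat.totient_mul hcop2, Nat.totient_prime hp, Nat.totient_prime hq] at htot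
    have hpe : 2 ∣ p - 1 := (hp.even_sub_one hp2).two_dvd
    have hqe : 2 ∣ q - 1 := (hq.even_sub_one hq2).two_dvd
    have h4a : 4 ∣ a := by
      have h6 : 4 ∣ (p - 1) * ((q - 1) * Nat.totient 4) := by
        have h7 : 2 * 2 ∣ (p - 1) * (q - 1) := Nat.mul_dvd_mul hpe hqe
        have h8 : (p - 1) * ((q - 1) * Nat.totient 4) = (p - 1) * (q - 1) * Nat.totient 4 := by ring
        rw [h8]
        exact Dvd.dvd.mul_right h7 _
      exact h6.trans htot
    rw [hc4a] at hf
    omega
  · -- `4` does not divide the order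
    have hcount : Nat.card {g : G // g ^ M = 1} ≤ M := by
      by_cases h2G : 2 ∣ Nat.card G
      · have hc2 : oc G 2 = 1 :=
          le_antisymm h2 (Nat.pos_of_ne_zero (oc_prime_ne_zero Nat.prime_two h2G))
        obtain ⟨z, hz⟩ := oc_ne_zero_iff.mp (by rw [hc2]; norm_num : oc G 2 ≠ 0)
        have hu : ∀ w : G, orderOf w = 2 → w = z := by
          intro w hw
          have h3' : Nat.card {g : G // orderOf g = 2} = 1 := hc2
          rw [Nat.card_eq_one_iff_unique] at h3'
          have := h3'.1.elim ⟨w, hw⟩ ⟨z, hz⟩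
          exact congrArg Subtype.val this
        have hzc : ∀ g : G, Commute g z := by
          intro g
          have h3' := hu (g * z * g⁻¹) (by rw [orderOf_conj_eq]; exact hz)
          exact mul_inv_eq_iff_eq_mul.mp h3'
        have hzz : z ^ 2 = 1 := by rw [← hz]; exact pow_orderOf_eq_one z
        have hzM : z ^ M = z := by
          obtain ⟨k, hk⟩ := Nat.odd_iff.mpr (Nat.mod_two_ne_zero.mp (fun h => hMod (Nat.dvd_of_mod_eq_zero h)))
          rw [hk, pow_succ, pow_mul, hzz, one_pow, one_mul]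
        have hz1 : z ≠ 1 := by
          rintro rfl
          simp at hz
        let F : {g : G // g ^ M = 1} × Bool → G := fun w => if w.2 then (w.1 : G) else (w.1 : G) * z
        have hinj : Function.Injective F := by
          rintro ⟨x, b₁⟩ ⟨y, b₂⟩ h
          have hxy : ∀ (x y : {g : G // g ^ M = 1}), (x : G) ≠ y * z := by
            intro x y he
            have h4 := x.2
            rw [he, (hzc _).mul_pow, y.2, one_mul, hzM] at h4
            exact hz1 h4
          cases b₁ <;> cases b₂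
          · have h3' : (x : G) * z = y * z := h
            have := mul_right_cancel h3'
            rw [Subtype.ext this]
          · exact absurd (show (y : G) = x * z from h.symm) (hxy y x)
          · exact absurd (show (x : G) = y * z from h) (hxy x y)
          · have h3' : (x : G) = y := h
            rw [Subtype.ext h3']
        have h5 := Nat.card_le_card_of_injective F hinj
        rw [Nat.card_prod] at h5
        have h6 : Nat.card Bool = 2 := by simp
        have h7 : (Nat.card G).factorization 2 = 1 := by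
          have h8 : (Nat.card G).factorization 2 ≠ 0 := by
            intro h9
            exact (Nat.Prime.factorization_pos_of_dvd Nat.prime_two hn0 h2G).ne' h9
          have h9 : ¬ 2 ≤ (Nat.card G).factorization 2 := by
            intro h10
            exact h4G (by
              have := (Nat.Prime.pow_dvd_iff_le_factorization Nat.prime_two hn0).mpr h10
              simpa using this)
          omega
        rw [h7, pow_one] at hMG
        rw [h6, ← hMG] at h5
        omega
      · have h7 : (Nat.card G).factorization 2 = 0 := Nat.factorization_eq_zero_of_not_dvd h2G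
        rw [h7, pow_zero, one_mul] at hMG
        have h8 : Nat.card {g : G // g ^ M = 1} ≤ Nat.card G :=
          Nat.card_le_card_of_injective _ Subtype.val_injective
        omega
    rw [sol_eq_sum hMpos.ne'] at hcount
    have hsub : ({1, p, p * q} : Finset ℕ) ⊆ M.divisors := by
      intro d hd
      simp only [Finset.mem_insert, Finset.mem_singleton] at hd
      rw [Nat.mem_divisors]
      refine ⟨?_, hMpos.ne'⟩
      rcases hd with rfl | rfl | rfl
      · exact one_dvd _
      · exact hpM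
      · exact hpqM
    have hsum := Finset.sum_le_sum_of_subset (f := fun d => oc G d) hsub
    have hne1 : (1 : ℕ) ≠ p := hp.one_lt.ne
    have hne2 : (1 : ℕ) ≠ p * q := (by nlinarith [hp.one_lt, hq.one_lt] : 1 < p * q).ne
    have hne3 : p ≠ p * q := by
      intro h
      have : p * 1 = p * q := by rw [mul_one]; exact h
      have := Nat.eq_of_mul_eq_mul_left hp.pos this
      exact hq.one_lt.ne this
    rw [Finset.sum_insert (by simp [hne1, hne2]), Finset.sum_insert (by simp [hne3]),
      Finset.sum_singleton, oc_one, hcp, hbval] at hsum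
    omega


/-- Two odd primes with different counts: no elements of order `pq`. -/
theorem pair_diff {a b : ℕ} (hval : ∀ m, 3 ≤ m → oc G m = 0 ∨ oc G m = a ∨ oc G m = b)
    {p q : ℕ} (hp : p.Prime) (hq : q.Prime) (hp2 : p ≠ 2) (hq2 : q ≠ 2)
    (hpq : p ≠ q) (hpG : p ∣ Nat.card G) (hqG : q ∣ Nat.card G) (hcp : oc G p = a)
    (hcq : oc G q = b) :
    oc G (p * q) = 0 ∧ ((b : ℕ) : ZMod p) = 0 ∧ ((a : ℕ) : ZMod q) = 0 := by
  haveI : Fact p.Prime := ⟨hp⟩
  haveI : Fact q.Prime := ⟨hq⟩
  have hp3 : 3 ≤ p := by have := hp.two_le; omega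
  have hq3 : 3 ≤ q := by have := hq.two_le; omega
  have ha0 : a ≠ 0 := hcp ▸ oc_prime_ne_zero hp hpG
  have hb0 : b ≠ 0 := hcq ▸ oc_prime_ne_zero hq hqG
  have hap : ((a : ℕ) : ZMod p) = -1 := hcp ▸ one_add_oc_prime hp hpG
  have hbq : ((b : ℕ) : ZMod q) = -1 := hcq ▸ one_add_oc_prime hq hqG
  have h1 := sum_pair (G := G) hp hq hpq hpG
  have h2 := sum_pair (G := G) hq hp hpq.symm hqG
  rw [hcp, hcq, hap] at h1
  rw [hcp, hcq, hbq, mul_comm q p] at h2
  have hone0p : (1 : ZMod p) ≠ 0 := one_ne_zero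
  have hone0q : (1 : ZMod q) ≠ 0 := one_ne_zero
  rcases hval (p * q) (le_trans hp3 (Nat.le_mul_of_pos_right _ hq.pos)) with h | h | h
  · rw [h] at h1 h2
    refine ⟨h, ?_, ?_⟩
    · push_cast at h1
      linear_combination h1
    · push_cast at h2
      linear_combination h2
  · exfalso
    rw [h, hap] at h1
    have hb1 : ((b : ℕ) : ZMod p) = 1 := by linear_combination h1
    have hnd : ¬ p ∣ oc G q := by
      intro hd
      have := (ZMod.natCast_eq_zero_iff _ _).mpr hd
      rw [hcq, hb1] at this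
      exact hone0p this
    have hndr : ¬ p ∣ q := fun hd => hpq ((Nat.prime_dvd_prime_iff_eq hp hq).mp hd)
    have hle := two_mul_oc_le (G := G) hp hq3 hndr hnd
    rw [hcp, h] at hle
    omega
  · exfalso
    rw [h, hbq] at h2
    have ha1 : ((a : ℕ) : ZMod q) = 1 := by linear_combination h2
    have hnd : ¬ q ∣ oc G p := by
      intro hd
      have := (ZMod.natCast_eq_zero_iff _ _).mpr hd
      rw [hcp, ha1] at this
      exact hone0q this
    have hndr : ¬ q ∣ p := fun hd => hpq ((Nat.prime_dvd_prime_iff_eq hq hp).mp hd).symm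
    have hle := two_mul_oc_le (G := G) hq hp3 hndr hnd
    rw [hcq, mul_comm q p, h] at hle
    omega

/-- Two odd primes with different counts and a unique involution: `4` does not divide the order. -/
theorem no_four {a b : ℕ} (hval : ∀ m, 3 ≤ m → oc G m = 0 ∨ oc G m = a ∨ oc G m = b)
    (hc2 : oc G 2 = 1) {p q : ℕ} (hp : p.Prime) (hq : q.Prime) (hp2 : p ≠ 2) (hq2 : q ≠ 2)
    (hpq : p ≠ q) (hpG : p ∣ Nat.card G) (hqG : q ∣ Nat.card G) (hcp : oc G p = a)
    (hcq : oc G q = b) : ¬ 4 ∣ Nat.card G := by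
  intro h4G
  haveI : Fact p.Prime := ⟨hp⟩
  haveI : Fact q.Prime := ⟨hq⟩
  obtain ⟨-, hbp, haq⟩ := pair_diff hval hp hq hp2 hq2 hpq hpG hqG hcp hcq
  have hap : ((a : ℕ) : ZMod p) = -1 := hcp ▸ one_add_oc_prime hp hpG
  have hbq : ((b : ℕ) : ZMod q) = -1 := hcq ▸ one_add_oc_prime hq hqG
  have hf := frobenius h4G
  rw [sol_eq_sum (by norm_num)] at hf
  have hd : (Nat.divisors 4) = {1, 2, 4} := by decide
  rw [hd, Finset.sum_insert (by decide), Finset.sum_insert (by decide), Finset.sum_singleton,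
    oc_one, hc2] at hf
  have hc4ne : oc G 4 ≠ 0 := by
    intro h
    rw [h] at hf
    omega
  have hmul2 : ∀ {r : ℕ}, r.Prime → r ≠ 2 → oc G (r * 2) = oc G r := by
    intro r hr hr2
    rw [mul_comm]
    exact oc_two_mul hc2 (hr.odd_of_ne_two hr2)
  have hneg : ∀ {r : ℕ}, r.Prime → r ≠ 2 → (1 : ZMod r) ≠ -1 := by
    intro r hr hr2 h
    haveI : Fact (2 < r) := ⟨by have := hr.two_le; omega⟩
    exact ZMod.neg_one_ne_one h.symm
  have hone0p : (1 : ZMod p) ≠ 0 := one_ne_zero
  have hone0q : (1 : ZMod q) ≠ 0 := one_ne_zero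
  rcases hval 4 (by norm_num) with h | h | h
  · exact hc4ne h
  · have h1 := sum_four (G := G) hp hp2 hpG
    rw [hmul2 hp hp2, hc2, hcp, h, hap] at h1
    have h5 : ((oc G (p * 4) : ℕ) : ZMod p) = 1 := by
      push_cast at h1
      linear_combination h1
    rcases hval (p * 4) (by have := hp.two_le; omega) with h6 | h6 | h6
    · rw [h6] at h5
      exact hone0p (by simpa using h5.symm)
    · rw [h6, hap] at h5
      exact hneg hp hp2 h5.symm
    · rw [h6, hbp] at h5
      exact hone0p h5.symm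
  · have h1 := sum_four (G := G) hq hq2 hqG
    rw [hmul2 hq hq2, hc2, hcq, h, hbq] at h1
    have h5 : ((oc G (q * 4) : ℕ) : ZMod q) = 1 := by
      push_cast at h1
      linear_combination h1
    rcases hval (q * 4) (by have := hq.two_le; omega) with h6 | h6 | h6
    · rw [h6] at h5
      exact hone0q (by simpa using h5.symm)
    · rw [h6, haq] at h5
      exact hone0q h5.symm
    · rw [h6, hbq] at h5
      exact hneg hq hq2 h5.symm

theorem exists_pow_mul_pow {n p q : ℕ} (hn : n ≠ 0) (hp : p.Prime) (hq : q.Prime)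
    (h : n.primeFactors ⊆ {p, q}) : ∃ α β, n = p ^ α * q ^ β := by
  refine ⟨n.factorization p, (n / p ^ n.factorization p).primeFactorsList.length, ?_⟩
  have h1 := Nat.ordProj_mul_ordCompl_eq_self n p
  have hm0 : n / p ^ n.factorization p ≠ 0 := (Nat.ordCompl_pos p hn).ne'
  have h2 : n / p ^ n.factorization p = q ^ (n / p ^ n.factorization p).primeFactorsList.length := by
    apply Nat.eq_prime_pow_of_unique_prime_dvd hm0
    intro d hd hdm
    have hdn : d ∣ n := hdm.trans (Nat.ordCompl_dvd n p)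
    have hmem : d ∈ n.primeFactors := Nat.mem_primeFactors.mpr ⟨hd, hdn, hn⟩
    have := h hmem
    simp only [Finset.mem_insert, Finset.mem_singleton] at this
    rcases this with rfl | rfl
    · exact absurd hdm (Nat.not_dvd_ordCompl hd hn)
    · rfl
  rw [← h2, h1]

theorem isSolvable_of_primeFactors_subset.{u} {H : Type u} [Group H] [Finite H] {p q : ℕ}
    (hp : p.Prime) (hq : q.Prime) (h : (Nat.card H).primeFactors ⊆ {p, q}) : Group.IsSolvable H :=
  Cfsg.Agent.Lib.Char.isSolvable_of_card_eq_aux hp hq _ H rfl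
    (exists_pow_mul_pow Nat.card_pos.ne' hp hq h)

end OrderCount
end Cfsg.Agent.Lib.PGroups
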