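import Mathlib
import Cfsg.Prelude.Def_KGroupFacts
import Cfsg.Agent.Lib.PGroups.Parts
import Cfsg.Agent.Lib.Coprime.SchurBasic

/-! Stem extensions of dihedral groups: the kernel lies in a cyclic group generated by a commutator. -/

set_option autoImplicit false

namespace Cfsg.Agent.Lib.PGroups

open Subgroup DihedralGroup
open scoped commutatorElement

theorem r_two_zpow (n : ℕ) (i : ℤ) : (r (2 : ZMod n)) ^ i = r ((i : ZMod n) * 2) := by
  induction i using Int.induction_on with
  | zero => simp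
  | succ i ih =>
    rw [zpow_add_one, ih, r_mul_r]
    congr 1
    push_cast
    ring
  | pred i ih =>
    rw [zpow_sub_one, ih, inv_r, r_mul_r]
    congr 1
    push_cast
    ring

/-- The basic computation in a stem extension of a dihedral group. -/
theorem dihedral_stem_core {n : ℕ} [NeZero n] {Γ : Type*} [Group Γ] [Finite Γ]
    (σ : Γ →* DihedralGroup n) (hσ : Cfsg.IsStemExtension σ) :
    ∃ c : Γ, σ c = r 2 ∧ c ^ n = 1 ∧ ∀ k ∈ σ.ker, ∃ i : ℤ, k = c ^ i := by
  classical
  obtain ⟨hsurj, hcen, hcomm⟩ := hσ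
  obtain ⟨rt, hrt⟩ := hsurj (r 1)
  obtain ⟨st, hst⟩ := hsurj (sr 0)
  have hcentral : ∀ k ∈ σ.ker, ∀ g : Γ, g * k = k * g := fun k hk g =>
    mem_center_iff.mp (hcen hk) g
  set z := st * rt * st⁻¹ * rt with hz
  have hzk : z ∈ σ.ker := by
    rw [MonoidHom.mem_ker, hz, map_mul, map_mul, map_mul, map_inv, hrt, hst]
    simp
  have hzc := hcentral z hzk
  have hsr : st * rt * st⁻¹ = z * rt⁻¹ := by rw [hz]; group
  set c := ⁅rt, st⁆ with hc
  have hc2 : c = rt * rt * z⁻¹ := by
    have h1 : st * rt⁻¹ * st⁻¹ = rt * z⁻¹ := by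
      have h2 : st * rt⁻¹ * st⁻¹ = (st * rt * st⁻¹)⁻¹ := by group
      rw [h2, hsr]
      have h3 := hzc rt
      have h4 : (z * rt⁻¹)⁻¹ = rt * z⁻¹ := by group
      exact h4
    rw [hc, commutatorElement_def]
    calc rt * st * rt⁻¹ * st⁻¹ = rt * (st * rt⁻¹ * st⁻¹) := by group
      _ = rt * (rt * z⁻¹) := by rw [h1]
      _ = rt * rt * z⁻¹ := by group
  have hσc : σ c = r 2 := by
    rw [hc2, map_mul, map_mul, map_inv, (MonoidHom.mem_ker).mp hzk, hrt]
    simp only [r_mul_r, inv_one, mul_one]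
    congr 1
    norm_num
  refine ⟨c, hσc, ?_, ?_⟩
  · -- `c ^ n = 1`
    set l := rt ^ n with hl
    have hlk : l ∈ σ.ker := by
      rw [MonoidHom.mem_ker, hl, map_pow, hrt, r_one_pow_n]
    have hlc := hcentral l hlk
    have h1 : st * l * st⁻¹ = z ^ n * l⁻¹ := by
      rw [hl, ← conj_pow, hsr]
      have h2 : Commute z rt⁻¹ := (hzc rt⁻¹).symm
      rw [h2.mul_pow, inv_pow]
    have h2 : st * l * st⁻¹ = l := by
      rw [hlc st]; group
    have h3 : l * l = z ^ n := by
      have h4 : z ^ n * l⁻¹ = l := h1.symm.trans h2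
      calc l * l = (z ^ n * l⁻¹) * l := by rw [h4]
        _ = z ^ n := by group
    have hcomm1 : Commute rt z⁻¹ := (show Commute rt z from hzc rt).inv_right
    have hc3 : c = rt ^ 2 * z⁻¹ := by rw [hc2, pow_two]
    rw [hc3, (show Commute (rt ^ 2) z⁻¹ from hcomm1.pow_left 2).mul_pow, ← pow_mul, mul_comm 2 n,
      pow_mul, ← hl, pow_two, h3, inv_pow]
    group
  · intro k hk
    -- generators
    set S : Set Γ := insert rt (insert st (σ.ker : Set Γ)) with hS
    have hStop : closure S = ⊤ := by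
      rw [eq_top_iff]
      intro g _
      have hrtm : rt ∈ closure S := subset_closure (Set.mem_insert _ _)
      have hstm : st ∈ closure S := subset_closure (Set.mem_insert_of_mem _ (Set.mem_insert _ _))
      have hkm : ∀ k ∈ σ.ker, k ∈ closure S := fun k hk =>
        subset_closure (Set.mem_insert_of_mem _ (Set.mem_insert_of_mem _ hk))
      obtain ⟨w, hw, hwσ⟩ : ∃ w ∈ closure S, σ w = σ g := by
        rcases hg : σ g with i | i
        · refine ⟨rt ^ (i.val), pow_mem hrtm _, ?_⟩
          rw [map_pow, hrt, r_one_pow]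
          simp
        · refine ⟨st * rt ^ (i.val), mul_mem hstm (pow_mem hrtm _), ?_⟩
          rw [map_mul, map_pow, hrt, hst, r_one_pow, sr_mul_r]
          simp
      have h1 : g * w⁻¹ ∈ σ.ker := by
        rw [MonoidHom.mem_ker, map_mul, map_inv, hwσ]; group
      have h2 : g = (g * w⁻¹) * w := by group
      rw [h2]
      exact mul_mem (hkm _ h1) hw
    -- the conjugates of `c`
    have hconj : ∀ u ∈ S, u * c * u⁻¹ ∈ zpowers c := by
      rintro u (hu | hu | hu)
      · rw [hu]
        have : rt * c * rt⁻¹ = c := by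
          have h5 : z⁻¹ * rt⁻¹ = rt⁻¹ * z⁻¹ := ((show Commute rt z from hzc rt).inv_right.inv_left).eq.symm
          calc rt * c * rt⁻¹ = rt * (rt * rt) * (z⁻¹ * rt⁻¹) := by rw [hc2]; group
            _ = rt * (rt * rt) * (rt⁻¹ * z⁻¹) := by rw [h5]
            _ = c := by rw [hc2]; group
        rw [this]; exact mem_zpowers c
      · rw [hu]
        have : st * c * st⁻¹ = c⁻¹ := by
          have h6 : st * z⁻¹ * st⁻¹ = z⁻¹ := by
            have h7 : st * z⁻¹ = z⁻¹ * st := ((show Commute st z from hzc st).inv_right).eq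
            rw [h7]; group
          calc st * c * st⁻¹ = (st * rt * st⁻¹) * (st * rt * st⁻¹) * (st * z⁻¹ * st⁻¹) := by
                rw [hc2]; group
            _ = (z * rt⁻¹) * (z * rt⁻¹) * z⁻¹ := by rw [hsr, h6]
            _ = z * (rt⁻¹ * z) * rt⁻¹ * z⁻¹ := by group
            _ = z * (z * rt⁻¹) * rt⁻¹ * z⁻¹ := by rw [hzc rt⁻¹]
            _ = z * (z * (rt⁻¹ * rt⁻¹)) * z⁻¹ := by group
            _ = z * ((rt⁻¹ * rt⁻¹) * z) * z⁻¹ := by rw [hzc (rt⁻¹ * rt⁻¹)]
            _ = c⁻¹ := by rw [hc2]; group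
        rw [this]; exact inv_mem (mem_zpowers c)
      · have hu' : u ∈ σ.ker := hu
        have : u * c * u⁻¹ = c := by
          rw [← hcentral u hu' c]; group
        rw [this]; exact mem_zpowers c
    have hnorm : (zpowers c).Normal := by
      rw [← normalizer_eq_top_iff, eq_top_iff, ← hStop, closure_le]
      intro u hu
      apply mem_normalizer_of_conj_le' (zpowers c) u
      intro w hw
      obtain ⟨i, rfl⟩ := mem_zpowers_iff.mp hw
      rw [← conj_zpow]
      exact zpow_mem (hconj u hu) _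
    have hone : ∀ u v : Γ, u * v = v * u → u * v * u⁻¹ * v⁻¹ ∈ zpowers c := by
      intro u v huv
      have : u * v * u⁻¹ * v⁻¹ = 1 := by rw [huv]; group
      rw [this]; exact one_mem _
    have hle := Cfsg.Agent.Lib.Coprime.SchurBasic.commutator_le_of_closure (zpowers c) S hStop (by
      intro u hu v hv
      have hc5 : rt * st * rt⁻¹ * st⁻¹ = c := by rw [hc, commutatorElement_def]
      rcases hu with hu | hu | hu
      · rcases hv with hv | hv | hv
        · rw [hu, hv]; exact hone _ _ rfl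
        · rw [hu, hv, hc5]; exact mem_zpowers c
        · rw [hu]; exact hone _ _ (hcentral v hv rt)
      · rcases hv with hv | hv | hv
        · rw [hu, hv]
          have : st * rt * st⁻¹ * rt⁻¹ = c⁻¹ := by rw [← hc5]; group
          rw [this]; exact inv_mem (mem_zpowers c)
        · rw [hu, hv]; exact hone _ _ rfl
        · rw [hu]; exact hone _ _ (hcentral v hv st)
      · exact hone _ _ (hcentral u hu v).symm)
    obtain ⟨i, hi⟩ := mem_zpowers_iff.mp (hle (hcomm hk))
    exact ⟨i, hi.symm⟩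

end Cfsg.Agent.Lib.PGroups
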