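import Mathlib
import Cfsg.Agent.Lib.Coprime.Partition
import Cfsg.Agent.Lib.Basic.Core
import Cfsg.Prelude.Def_Local
import Cfsg.Prelude.Def_Transfer

/-!
# Completeness of hyperplane families inside a solvable `p'`-group

`A` is an elementary abelian `p`-group acting on a solvable `p'`-group `Y`, and `Λ` a family of
`A`-invariant subgroups attached to the subgroups of `A` of corank at most two, with the balance
property `Λ F ∩ C(F') ≤ Λ (F F')`. If `Y` is generated by the `Y ∩ Λ H`, `H` a hyperplane of `A`,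
then `C_Y(H) = Y ∩ Λ H`.
-/

set_option autoImplicit false
set_option linter.unusedSectionVars false
set_option linter.style.haveILetI false
set_option linter.unusedVariables false
set_option linter.unusedSimpArgs false

namespace Cfsg.Agent.Lib.PGroups.KBalF

open Cfsg Cfsg.Agent.Lib.Coprime
open scoped commutatorElement

variable {G : Type*} [Group G] [Finite G] {p : ℕ} [Fact p.Prime]

/-- `H` is a hyperplane of the elementary abelian group `A`. -/
def IsHyp (p : ℕ) (A H : Subgroup G) : Prop := H ≤ A ∧ Nat.card A = Nat.card H * p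

/-- A subgroup is normalized by `u` as soon as it is mapped into itself. -/
theorem mem_norm {T : Subgroup G} {u : G} (h : ∀ x ∈ T, u * x * u⁻¹ ∈ T) :
    u ∈ Subgroup.normalizer (T : Set G) := by
  rw [Subgroup.mem_normalizer_iff]
  intro n
  refine ⟨h n, fun hn => ?_⟩
  let f : T → T := fun x => ⟨u * x * u⁻¹, h x x.2⟩
  have hf : Function.Injective f := by
    intro a b hab
    have h1 : u * (a : G) * u⁻¹ = u * (b : G) * u⁻¹ := congrArg Subtype.val hab
    apply Subtype.ext
    simpa using h1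
  obtain ⟨y, hy⟩ := (Finite.injective_iff_surjective.mp hf) ⟨_, hn⟩
  have h1 : u * (y : G) * u⁻¹ = u * n * u⁻¹ := congrArg Subtype.val hy
  have h2 : (y : G) = n := by simpa using h1
  rw [← h2]
  exact y.2

theorem isPGroup_of_ea {A : Subgroup G} (hA : IsElementaryAbelian p A) : IsPGroup p A := by
  rintro ⟨b, hb⟩
  exact ⟨1, Subtype.ext (by simpa using hA.2 b hb)⟩

theorem coprime_of_ea {A X : Subgroup G} (hA : IsElementaryAbelian p A) (hX : ¬ p ∣ Nat.card X) :
    Nat.Coprime (Nat.card A) (Nat.card X) := by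
  have hp : p.Prime := Fact.out
  obtain ⟨n, hn⟩ := IsPGroup.iff_card.mp (isPGroup_of_ea hA)
  rw [hn]
  exact Nat.Coprime.pow_left _ ((Nat.Prime.coprime_iff_not_dvd hp).mpr hX)

theorem coprimeAction_of_ea {A X : Subgroup G} (hA : IsElementaryAbelian p A) (hX : ¬ p ∣ Nat.card X)
    (hAX : A ≤ Subgroup.normalizer (X : Set G)) : CoprimeAction A X := by
  exact ⟨hAX, coprime_of_ea hA hX, Or.inl (Group.isSolvable_of_comm (fun a b => hA.1.is_comm.comm a b))⟩

/-- Subgroups of an elementary abelian group are elementary abelian. -/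
theorem ea_mono {A F : Subgroup G} (hA : IsElementaryAbelian p A) (hF : F ≤ A) :
    IsElementaryAbelian p F := by
  refine ⟨⟨⟨?_⟩⟩, fun a ha => hA.2 a (hF ha)⟩
  rintro ⟨a, ha⟩ ⟨b, hb⟩
  have h := congrArg Subtype.val (hA.1.is_comm.comm ⟨a, hF ha⟩ ⟨b, hF hb⟩)
  exact Subtype.ext h

/-- Between `F` and `H`, a subgroup of any admissible order. -/
theorem exists_between_card {F H : Subgroup G} (hH : IsPGroup p H) (hFH : F ≤ H) {n k : ℕ}
    (hF : Nat.card F = p ^ n) (hnk : n ≤ k) (hk : p ^ k ≤ Nat.card H) :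
    ∃ D : Subgroup G, F ≤ D ∧ D ≤ H ∧ Nat.card D = p ^ k := by
  have hp : p.Prime := Fact.out
  obtain ⟨t, ht⟩ := IsPGroup.iff_card.mp hH
  have hkt : k ≤ t := by
    rw [ht] at hk
    exact (Nat.pow_le_pow_iff_right hp.one_lt).mp hk
  have hF' : Nat.card (F.subgroupOf H) = p ^ n := by
    rw [Nat.card_congr (Subgroup.subgroupOfEquivOfLe hFH).toEquiv, hF]
  obtain ⟨K, hK, hFK⟩ := Sylow.exists_subgroup_card_pow_prime_le (G := H) p
    (n := n) (m := k) (by rw [ht]; exact pow_dvd_pow p hkt) (F.subgroupOf H) hF' hnk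
  refine ⟨K.map H.subtype, ?_, Subgroup.map_subtype_le K, ?_⟩
  · intro x hx
    exact ⟨⟨x, hFH hx⟩, hFK (Subgroup.mem_subgroupOf.mpr hx), rfl⟩
  · rw [Subgroup.card_map_of_injective H.subtype_injective, hK]

theorem card_eq_mul_relIndex {H A : Subgroup G} (hHA : H ≤ A) :
    Nat.card A = Nat.card H * H.relIndex A := by
  have h1 := Subgroup.card_mul_index (H.subgroupOf A)
  rw [Nat.card_congr (Subgroup.subgroupOfEquivOfLe hHA).toEquiv] at h1
  exact h1.symm

theorem relIndex_of_hyp {A H : Subgroup G} (hH : IsHyp p A H) : H.relIndex A = p := by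
  have h1 := card_eq_mul_relIndex hH.1
  rw [hH.2] at h1
  exact (Nat.eq_of_mul_eq_mul_left Nat.card_pos h1).symm

theorem hyp_ne {A H : Subgroup G} (hH : IsHyp p A H) : H ≠ A := by
  have hp : p.Prime := Fact.out
  rintro rfl
  have h1 := hH.2
  have h2 : Nat.card H * 1 = Nat.card H * p := by simpa using h1
  have h3 := Nat.eq_of_mul_eq_mul_left Nat.card_pos h2
  exact hp.one_lt.ne h3

/-- A proper subgroup of `A` lies in a hyperplane. -/
theorem exists_hyp_ge {A F : Subgroup G} (hA : IsElementaryAbelian p A) (hFA : F ≤ A) (hne : F ≠ A) :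
    ∃ H, IsHyp p A H ∧ F ≤ H := by
  have hp : p.Prime := Fact.out
  have hPA := isPGroup_of_ea hA
  obtain ⟨t, ht⟩ := IsPGroup.iff_card.mp hPA
  obtain ⟨n, hn⟩ := IsPGroup.iff_card.mp (isPGroup_of_ea (ea_mono hA hFA))
  have hlt : Nat.card F < Nat.card A := by
    refine lt_of_le_of_ne (Subgroup.card_le_of_le hFA) fun h => hne ?_
    exact Subgroup.eq_of_le_of_card_ge hFA h.ge
  have hnt : n < t := by
    rw [hn, ht] at hlt
    exact (Nat.pow_lt_pow_iff_right hp.one_lt).mp hlt
  obtain ⟨D, hFD, hDA, hD⟩ := exists_between_card hPA hFA hn (Nat.le_sub_one_of_lt hnt) (k := t - 1)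
    (by rw [ht]; exact Nat.pow_le_pow_right hp.pos (Nat.sub_le _ _))
  refine ⟨D, ⟨hDA, ?_⟩, hFD⟩
  rw [hD, ht, ← pow_succ]
  congr 1
  omega

/-- If `H ⟨a⟩ = A` and `H ≠ A` then `H` is a hyperplane. -/
theorem isHyp_of_sup {A H : Subgroup G} (hA : IsElementaryAbelian p A) (hHA : H ≤ A) (hne : H ≠ A)
    {a : G} (ha : a ∈ A) (hsup : H ⊔ Subgroup.zpowers a = A) : IsHyp p A H := by
  have hp : p.Prime := Fact.out
  have hnorm : Subgroup.zpowers a ≤ Subgroup.normalizer (H : Set G) := by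
    intro x hx
    have hxA : x ∈ A := (Subgroup.zpowers_le.mpr ha) hx
    apply mem_norm
    intro y hy
    have h1 := congrArg Subtype.val (hA.1.is_comm.comm ⟨x, hxA⟩ ⟨y, hHA hy⟩)
    have h2 : x * y = y * x := h1
    rw [h2]
    simpa using hy
  have hrel : H.relIndex A = H.relIndex (Subgroup.zpowers a) := by
    rw [← hsup]
    exact relIndex_sup_of_le_normalizer H _ hnorm
  have hdvd : H.relIndex (Subgroup.zpowers a) ∣ Nat.card (Subgroup.zpowers a) :=
    Subgroup.relIndex_dvd_card _ _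
  have hcard : Nat.card (Subgroup.zpowers a) ∣ p := by
    rw [Nat.card_zpowers]
    exact orderOf_dvd_of_pow_eq_one (hA.2 a ha)
  have hrp : H.relIndex A ∣ p := by
    rw [hrel]
    exact hdvd.trans hcard
  refine ⟨hHA, ?_⟩
  have h1 := card_eq_mul_relIndex hHA
  rcases (Nat.dvd_prime hp).mp hrp with h | h
  · exfalso
    rw [Subgroup.relIndex_eq_one] at h
    exact hne (le_antisymm hHA h)
  · rw [h] at h1
    exact h1

/-- **Generation** by centralizers of hyperplanes over `F`. -/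
theorem gen_hyp {A X F : Subgroup G} (hA : IsElementaryAbelian p A)
    (hAX : A ≤ Subgroup.normalizer (X : Set G)) (hX : ¬ p ∣ Nat.card X) (hFA : F ≤ A) (hne : F ≠ A)
    (hXF : X ≤ Subgroup.centralizer (F : Set G)) :
    X ≤ ⨆ H : {H : Subgroup G // IsHyp p A H ∧ F ≤ H}, X ⊓ Subgroup.centralizer ((H : Subgroup G) : Set G) := by
  have h0 := le_iSup_centralizer_of_abelian_action hA.1 _ X rfl hAX (coprime_of_ea hA hX)
  refine h0.trans (iSup₂_le ?_)
  rintro B ⟨hBA, a, ha, hBa⟩
  have hB'A : B ⊔ F ≤ A := sup_le hBA hFA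
  have hsub : X ⊓ Subgroup.centralizer (B : Set G) ≤ Subgroup.centralizer ((B ⊔ F : Subgroup G) : Set G) := by
    rintro x ⟨hx1, hx2⟩
    have h1 : B ≤ Subgroup.centralizer ({x} : Set G) := by
      intro b hb
      rw [Subgroup.mem_centralizer_iff]
      intro c hc
      rw [Set.mem_singleton_iff] at hc
      subst hc
      exact (Subgroup.mem_centralizer_iff.mp hx2 b hb).symm
    have h2 : F ≤ Subgroup.centralizer ({x} : Set G) := by
      intro b hb
      rw [Subgroup.mem_centralizer_iff]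
      intro c hc
      rw [Set.mem_singleton_iff] at hc
      subst hc
      exact (Subgroup.mem_centralizer_iff.mp (hXF hx1) b hb).symm
    rw [Subgroup.mem_centralizer_iff]
    intro y hy
    have h3 := (sup_le h1 h2) hy
    exact (Subgroup.mem_centralizer_iff.mp h3 x rfl).symm
  by_cases hB' : B ⊔ F = A
  · obtain ⟨H, hH, hFH⟩ := exists_hyp_ge hA hFA hne
    refine le_trans ?_ (le_iSup (fun H : {H : Subgroup G // IsHyp p A H ∧ F ≤ H} =>
      X ⊓ Subgroup.centralizer ((H : Subgroup G) : Set G)) ⟨H, hH, hFH⟩)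
    refine le_inf inf_le_left (hsub.trans ?_)
    rw [hB']
    exact Subgroup.centralizer_le hH.1
  · have hH : IsHyp p A (B ⊔ F) := by
      refine isHyp_of_sup hA hB'A hB' ha (le_antisymm (sup_le hB'A (Subgroup.zpowers_le.mpr ha)) ?_)
      rw [← hBa]
      exact sup_le_sup_right le_sup_left _
    refine le_trans ?_ (le_iSup (fun H : {H : Subgroup G // IsHyp p A H ∧ F ≤ H} =>
      X ⊓ Subgroup.centralizer ((H : Subgroup G) : Set G)) ⟨B ⊔ F, hH, le_sup_right⟩)
    exact le_inf inf_le_left hsub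


/-- The family `Λ` of subgroups attached to the subgroups of `A`. -/
structure Fam (p : ℕ) (A : Subgroup G) (Λ : Subgroup G → Subgroup G) : Prop where
  inv : ∀ F, F ≤ A → ∀ a ∈ A, ∀ x ∈ Λ F, a * x * a⁻¹ ∈ Λ F
  anti : ∀ F F', F ≤ F' → F' ≤ A → Λ F' ≤ Λ F
  cent : ∀ F, F ≤ A → Λ F ≤ Subgroup.centralizer (F : Set G)
  bal : ∀ F F', F ≤ A → F' ≤ A → Nat.card A ≤ Nat.card F * p ^ 2 →
    Λ F ⊓ Subgroup.centralizer (F' : Set G) ≤ Λ (F ⊔ F')

/-- The subgroup generated by the intersections with the `Λ H`, `H` a hyperplane. -/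
def genOf (p : ℕ) (A : Subgroup G) (Λ : Subgroup G → Subgroup G) (W : Subgroup G) : Subgroup G :=
  ⨆ H : {H : Subgroup G // IsHyp p A H}, W ⊓ Λ (H : Subgroup G)

theorem le_genOf {A : Subgroup G} {Λ : Subgroup G → Subgroup G} {W H : Subgroup G}
    (hH : IsHyp p A H) : W ⊓ Λ H ≤ genOf p A Λ W :=
  le_iSup (fun H : {H : Subgroup G // IsHyp p A H} => W ⊓ Λ (H : Subgroup G)) ⟨H, hH⟩

theorem genOf_le_self {A : Subgroup G} {Λ : Subgroup G → Subgroup G} {W : Subgroup G} :
    genOf p A Λ W ≤ W :=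
  iSup_le fun _ => inf_le_left

section Core

variable {A : Subgroup G} {Λ : Subgroup G → Subgroup G}

theorem inf_inv {W : Subgroup G} (hF : Fam p A Λ) (hWA : A ≤ Subgroup.normalizer (W : Set G))
    {F : Subgroup G} (hFA : F ≤ A) : A ≤ Subgroup.normalizer ((W ⊓ Λ F : Subgroup G) : Set G) := by
  intro a ha
  apply mem_norm
  rintro x ⟨hx1, hx2⟩
  exact ⟨(Subgroup.mem_normalizer_iff.mp (hWA ha) x).mp hx1, hF.inv F hFA a ha x hx2⟩

theorem not_dvd_of_le {W Y : Subgroup G} (h : W ≤ Y) (hY : ¬ p ∣ Nat.card Y) : ¬ p ∣ Nat.card W :=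
  fun hd => hY (hd.trans (Subgroup.card_dvd_of_le h))

/-- The conjugation lemma. -/
theorem conj_mem_gen (hA : IsElementaryAbelian p A) (hF : Fam p A Λ) {W : Subgroup G}
    (hWA : A ≤ Subgroup.normalizer (W : Set G)) (hWp : ¬ p ∣ Nat.card W) {H H' : Subgroup G}
    (hH : IsHyp p A H) (hH' : IsHyp p A H') {x y : G} (hxH : x ∈ Λ H) (hyH : y ∈ Λ H')
    (hyxW : y * x * y⁻¹ ∈ W) : y * x * y⁻¹ ∈ genOf p A Λ W := by
  have hp : p.Prime := Fact.out
  by_cases hHH : H = H'
  · subst hHH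
    exact le_genOf hH ⟨hyxW, (Λ H).mul_mem ((Λ H).mul_mem hyH hxH) ((Λ H).inv_mem hyH)⟩
  · let F : Subgroup G := H ⊓ H'
    have hFA : F ≤ A := inf_le_left.trans hH.1
    have hFH : F ≤ H := inf_le_left
    have hFH' : F ≤ H' := inf_le_right
    have hFne : F ≠ A := by
      intro h
      apply hyp_ne hH
      exact le_antisymm hH.1 (h ▸ hFH)
    have hcard : Nat.card A ≤ Nat.card F * p ^ 2 := by
      have h1 := card_eq_mul_relIndex hFA
      have h2 : F.relIndex A ≤ p ^ 2 := by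
        have h3 : (H ⊓ H').relIndex A ≤ H.relIndex A * H'.relIndex A := Subgroup.relIndex_inf_le
        rw [relIndex_of_hyp hH, relIndex_of_hyp hH'] at h3
        rw [pow_two]
        exact h3
      rw [h1]
      exact Nat.mul_le_mul_left _ h2
    let T : Subgroup G := W ⊓ Λ F
    have hTA : A ≤ Subgroup.normalizer (T : Set G) := inf_inv hF hWA hFA
    have hTp : ¬ p ∣ Nat.card T := not_dvd_of_le inf_le_left hWp
    have hTF : T ≤ Subgroup.centralizer (F : Set G) := inf_le_right.trans (hF.cent F hFA)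
    have hmem : y * x * y⁻¹ ∈ T := by
      refine ⟨hyxW, ?_⟩
      have h1 := hF.anti F H hFH hH.1 hxH
      have h2 := hF.anti F H' hFH' hH'.1 hyH
      exact (Λ F).mul_mem ((Λ F).mul_mem h2 h1) ((Λ F).inv_mem h2)
    have hgen := gen_hyp hA hTA hTp hFA hFne hTF
    refine (iSup_le ?_ : _ ≤ genOf p A Λ W) (hgen hmem)
    rintro ⟨K, hK, hFK⟩
    rintro z ⟨⟨hz1, hz2⟩, hz3⟩
    have h3 := hF.bal F K hFA hK.1 hcard ⟨hz2, hz3⟩
    rw [sup_eq_right.mpr hFK] at h3
    exact le_genOf hK ⟨hz1, h3⟩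

/-- `genOf W ⊔ N` is normalized by `Y`. -/
theorem gen_sup_normal (hA : IsElementaryAbelian p A) (hF : Fam p A Λ) {W N Y : Subgroup G}
    (hWY : W ≤ Y) (hWn : Y ≤ Subgroup.normalizer (W : Set G)) (hNn : Y ≤ Subgroup.normalizer (N : Set G))
    (hYgen : Y ≤ genOf p A Λ Y ⊔ N) (hWA : A ≤ Subgroup.normalizer (W : Set G)) (hWp : ¬ p ∣ Nat.card W)
    (hNY : N ≤ Y) :
    Y ≤ Subgroup.normalizer ((genOf p A Λ W ⊔ N : Subgroup G) : Set G) := by
  refine hYgen.trans (sup_le (iSup_le ?_) ?_)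
  · rintro ⟨H', hH'⟩ y ⟨hy1, hy2⟩
    apply mem_norm
    have key : genOf p A Λ W ⊔ N ≤ (genOf p A Λ W ⊔ N).comap (MulAut.conj y).toMonoidHom := by
      refine sup_le (iSup_le ?_) ?_
      · rintro ⟨H, hH⟩ x ⟨hx1, hx2⟩
        refine Subgroup.mem_sup_left ?_
        refine conj_mem_gen hA hF hWA hWp hH hH' hx2 hy2 ?_
        exact (Subgroup.mem_normalizer_iff.mp (hWn hy1) x).mp hx1
      · intro n hn
        refine Subgroup.mem_sup_right ?_
        exact (Subgroup.mem_normalizer_iff.mp (hNn hy1) n).mp hn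
    intro z hz
    exact key hz
  · intro n₀ hn₀
    apply mem_norm
    have key : genOf p A Λ W ⊔ N ≤ (genOf p A Λ W ⊔ N).comap (MulAut.conj n₀).toMonoidHom := by
      refine sup_le (iSup_le ?_) ?_
      · rintro ⟨H, hH⟩ x ⟨hx1, hx2⟩
        have hxY : x ∈ Y := hWY hx1
        have h1 : n₀ * (x * n₀⁻¹ * x⁻¹) ∈ N :=
          N.mul_mem hn₀ ((Subgroup.mem_normalizer_iff.mp (hNn hxY) _).mp (N.inv_mem hn₀))
        have h2 : n₀ * x * n₀⁻¹ = (n₀ * (x * n₀⁻¹ * x⁻¹)) * x := by group
        change n₀ * x * n₀⁻¹ ∈ genOf p A Λ W ⊔ N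
        rw [h2]
        have h3 : x ∈ genOf p A Λ W ⊔ N := Subgroup.mem_sup_left (le_genOf hH ⟨hx1, hx2⟩)
        exact (genOf p A Λ W ⊔ N).mul_mem (Subgroup.mem_sup_right h1) h3
      · intro n hn
        refine Subgroup.mem_sup_right ?_
        exact N.mul_mem (N.mul_mem hn₀ hn) (N.inv_mem hn₀)
    intro z hz
    exact key hz


/-- Solvable and perfect modulo `N` forces `T ≤ N`. -/
theorem perfect_le {T N : Subgroup G} (hNT : N ≤ T) (hn : T ≤ Subgroup.normalizer (N : Set G))
    (hs : Group.IsSolvable T) (h : T ≤ ⁅T, T⁆ ⊔ N) : T ≤ N := by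
  by_contra hTN
  haveI hnn : (N.subgroupOf T).Normal := by
    refine ⟨fun x hx g => ?_⟩
    rw [Subgroup.mem_subgroupOf] at hx ⊢
    exact (Subgroup.mem_normalizer_iff.mp (hn g.2) x).mp hx
  let Q := ↥T ⧸ N.subgroupOf T
  let π : ↥T →* Q := QuotientGroup.mk' (N.subgroupOf T)
  have hπ : Function.Surjective π := QuotientGroup.mk'_surjective _
  have hker : ∀ y : ↥T, π y = 1 ↔ (y : G) ∈ N := by
    intro y
    rw [QuotientGroup.mk'_apply, QuotientGroup.eq_one_iff, Subgroup.mem_subgroupOf]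
  haveI hnt : Nontrivial Q := by
    obtain ⟨t, ht, htn⟩ := Set.not_subset.mp hTN
    refine ⟨π ⟨t, ht⟩, 1, fun h1 => htn ((hker _).mp h1)⟩
  have hlt := Group.IsSolvable.commutator_lt_top_of_nontrivial Q
  apply (lt_iff_le_not_ge.mp hlt).2
  intro q _
  obtain ⟨t, rfl⟩ := hπ q
  let K₁ : Subgroup G := ((commutator Q).comap π).map T.subtype
  have h1 : ⁅T, T⁆ ≤ K₁ := by
    rw [Subgroup.commutator_le]
    intro a ha b hb
    refine ⟨⁅(⟨a, ha⟩ : ↥T), (⟨b, hb⟩ : ↥T)⁆, ?_, rfl⟩
    change π ⁅(⟨a, ha⟩ : ↥T), (⟨b, hb⟩ : ↥T)⁆ ∈ commutator Q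
    rw [map_commutatorElement]
    exact Subgroup.commutator_mem_commutator (Subgroup.mem_top _) (Subgroup.mem_top _)
  have h2 : N ≤ K₁ := by
    intro n hn'
    refine ⟨⟨n, hNT hn'⟩, ?_, rfl⟩
    change π ⟨n, hNT hn'⟩ ∈ commutator Q
    rw [(hker _).mpr hn']
    exact Subgroup.one_mem _
  obtain ⟨t', ht', hte⟩ := (sup_le h1 h2) (h t.2)
  have : t' = t := Subtype.ext hte
  rw [← this]
  exact ht'

/-- A minimal `A`-invariant normal step above `N`, abelian modulo `N`. -/
theorem exists_min_step {A Y N : Subgroup G} (hNY : N ≤ Y) (hne : N ≠ Y)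
    (hNn : Y ≤ Subgroup.normalizer (N : Set G)) (hNA : A ≤ Subgroup.normalizer (N : Set G))
    (hYA : A ≤ Subgroup.normalizer (Y : Set G)) (hs : Group.IsSolvable Y) :
    ∃ V : Subgroup G, N < V ∧ V ≤ Y ∧ Y ≤ Subgroup.normalizer (V : Set G) ∧
      A ≤ Subgroup.normalizer (V : Set G) ∧ ⁅V, V⁆ ≤ N ∧
      ∀ W : Subgroup G, N ≤ W → W ≤ V → Y ≤ Subgroup.normalizer (W : Set G) →
        A ≤ Subgroup.normalizer (W : Set G) → W = N ∨ W = V := by
  let S : Set (Subgroup G) := {V | N < V ∧ V ≤ Y ∧ Y ≤ Subgroup.normalizer (V : Set G) ∧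
      A ≤ Subgroup.normalizer (V : Set G)}
  have hYS : Y ∈ S := ⟨lt_of_le_of_ne hNY hne, le_rfl, Subgroup.le_normalizer, hYA⟩
  obtain ⟨V, hV, hVmin⟩ := Set.exists_min_image S (fun V : Subgroup G => Nat.card V)
    (Set.toFinite S) ⟨Y, hYS⟩
  obtain ⟨hNV, hVY, hVn, hVA⟩ := hV
  have hmin : ∀ W : Subgroup G, N ≤ W → W ≤ V → Y ≤ Subgroup.normalizer (W : Set G) →
        A ≤ Subgroup.normalizer (W : Set G) → W = N ∨ W = V := by
    intro W hNW hWV hWn hWA
    by_cases hWN : W = N
    · exact Or.inl hWN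
    · right
      have h1 := hVmin W ⟨lt_of_le_of_ne hNW (Ne.symm hWN), hWV.trans hVY, hWn, hWA⟩
      exact Subgroup.eq_of_le_of_card_ge hWV h1
  refine ⟨V, hNV, hVY, hVn, hVA, ?_, hmin⟩
  have hcn : ∀ u : G, u ∈ Subgroup.normalizer (V : Set G) →
      u ∈ Subgroup.normalizer ((⁅V, V⁆ : Subgroup G) : Set G) := by
    intro u hu
    apply mem_norm
    have key : ⁅V, V⁆ ≤ (⁅V, V⁆ : Subgroup G).comap (MulAut.conj u).toMonoidHom := by
      rw [Subgroup.commutator_le]
      intro a ha b hb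
      rw [Subgroup.mem_comap, map_commutatorElement]
      refine Subgroup.commutator_mem_commutator ?_ ?_
      · exact (Subgroup.mem_normalizer_iff.mp hu a).mp ha
      · exact (Subgroup.mem_normalizer_iff.mp hu b).mp hb
    intro z hz
    exact key hz
  let D : Subgroup G := ⁅V, V⁆ ⊔ N
  have hDV : D ≤ V := sup_le (Subgroup.commutator_le_self V) hNV.le
  have hNV' : V ≤ Subgroup.normalizer (N : Set G) := hVY.trans hNn
  have hmemsup : ∀ u : G, u ∈ Subgroup.normalizer (V : Set G) → u ∈ Subgroup.normalizer (N : Set G) →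
      u ∈ Subgroup.normalizer (D : Set G) := by
    intro u hu hu'
    apply mem_norm
    have key : D ≤ D.comap (MulAut.conj u).toMonoidHom := by
      refine sup_le ?_ ?_
      · intro c hc
        exact Subgroup.mem_sup_left ((Subgroup.mem_normalizer_iff.mp (hcn u hu) c).mp hc)
      · intro c hc
        exact Subgroup.mem_sup_right ((Subgroup.mem_normalizer_iff.mp hu' c).mp hc)
    intro z hz
    exact key hz
  rcases hmin D le_sup_right hDV (fun u hu => hmemsup u (hVn hu) (hNn hu))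
    (fun u hu => hmemsup u (hVA hu) (hNA hu)) with h | h
  · exact le_sup_left.trans h.le
  · exfalso
    have hsV : Group.IsSolvable V :=
      Group.isSolvable_of_isSolvable_injective (Subgroup.inclusion_injective hVY)
    have h1 := perfect_le hNV.le hNV' hsV h.ge
    exact (lt_iff_le_not_ge.mp hNV).2 h1

/-- The **abelian norm lemma**: fixed points in `V / N` abelian. -/
theorem abel_cent {V N S B : Subgroup G} {ι : Type*} (X : ι → Subgroup G) (hNS : N ≤ S) (hSV : S ≤ V)
    (hNV : V ≤ Subgroup.normalizer (N : Set G)) (hcomm : ⁅V, V⁆ ≤ N)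
    (hBV : B ≤ Subgroup.normalizer (V : Set G)) (hBN : B ≤ Subgroup.normalizer (N : Set G))
    (hcop : Nat.Coprime (Nat.card B) (Nat.card V)) (hBs : Group.IsSolvable B)
    (hXV : ∀ j, X j ≤ V) (hXB : ∀ j, B ≤ Subgroup.normalizer ((X j : Subgroup G) : Set G))
    (hgen : V ≤ (⨆ j, X j) ⊔ N)
    (hXS : ∀ j, X j ⊓ Subgroup.centralizer (B : Set G) ≤ S) :
    V ⊓ Subgroup.centralizer (B : Set G) ≤ S := by
  classical
  haveI hnn : (N.subgroupOf V).Normal := by
    refine ⟨fun x hx g => ?_⟩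
    rw [Subgroup.mem_subgroupOf] at hx ⊢
    exact (Subgroup.mem_normalizer_iff.mp (hNV g.2) x).mp hx
  have hNVle : N ≤ V := hNS.trans hSV
  let Q := ↥V ⧸ N.subgroupOf V
  have hQc : ∀ a b : Q, a * b = b * a := by
    intro a b
    obtain ⟨a, rfl⟩ := QuotientGroup.mk_surjective a
    obtain ⟨b, rfl⟩ := QuotientGroup.mk_surjective b
    rw [← QuotientGroup.mk_mul, ← QuotientGroup.mk_mul, QuotientGroup.eq, Subgroup.mem_subgroupOf]
    have h1 : (⁅(b : G)⁻¹, (a : G)⁻¹⁆) ∈ N := hcomm (Subgroup.commutator_mem_commutator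
      (V.inv_mem b.2) (V.inv_mem a.2))
    have h2 : ((((a * b)⁻¹ * (b * a) : ↥V)) : G) = ⁅(b : G)⁻¹, (a : G)⁻¹⁆ := by
      simp [commutatorElement_def, mul_assoc]
    rw [h2]
    exact h1
  letI : CommGroup Q := { (inferInstance : Group Q) with mul_comm := hQc }
  let π : ↥V →* Q := QuotientGroup.mk' (N.subgroupOf V)
  have hπ : Function.Surjective π := QuotientGroup.mk'_surjective _
  have hker : ∀ y : ↥V, π y = 1 ↔ (y : G) ∈ N := by
    intro y
    rw [QuotientGroup.mk'_apply, QuotientGroup.eq_one_iff, Subgroup.mem_subgroupOf]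
  letI : Fintype B := Fintype.ofFinite B
  let c : G → ↥V → G := fun b v => b * v * b⁻¹
  have hc : ∀ (b : B) (v : ↥V), c b v ∈ V := fun b v =>
    (Subgroup.mem_normalizer_iff.mp (hBV b.2) v).mp v.2
  let cV : B → ↥V →* ↥V := fun b => MonoidHom.mk' (fun v => ⟨c b v, hc b v⟩) (by
    intro x y
    apply Subtype.ext
    change (b : G) * (x * y) * (b : G)⁻¹ = ((b : G) * x * (b : G)⁻¹) * ((b : G) * y * (b : G)⁻¹)
    group)
  let T : ↥V →* Q := MonoidHom.mk' (fun v => ∏ b : B, π (cV b v)) (by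
    intro x y
    rw [← Finset.prod_mul_distrib]
    refine Finset.prod_congr rfl fun b _ => ?_
    rw [map_mul, map_mul])
  have hTapply : ∀ v, T v = ∏ b : B, π (cV b v) := fun v => rfl
  -- the induced maps on `Q`
  have hcN : ∀ (h : B), N.subgroupOf V ≤ (N.subgroupOf V).comap (cV h) := by
    intro h n hn
    rw [Subgroup.mem_subgroupOf] at hn
    rw [Subgroup.mem_comap, Subgroup.mem_subgroupOf]
    exact (Subgroup.mem_normalizer_iff.mp (hBN h.2) _).mp hn
  let φ : B → Q →* Q := fun h => QuotientGroup.map _ _ (cV h) (hcN h)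
  have hφ : ∀ (h : B) (v : ↥V), φ h (π v) = π (cV h v) := fun h v => rfl
  have hcc : ∀ (h b : B) (v : ↥V), cV h (cV b v) = cV (h * b) v := by
    intro h b v
    apply Subtype.ext
    change (h : G) * ((b : G) * v * (b : G)⁻¹) * (h : G)⁻¹ =
      ((h : G) * b) * v * ((h : G) * b)⁻¹
    group
  have hφT : ∀ (h : B) (v : ↥V), φ h (T v) = T v := by
    intro h v
    rw [hTapply, map_prod]
    simp only [hφ, hcc]
    exact Fintype.prod_equiv (Equiv.mulLeft h) _ _ (fun b => rfl)
  -- the target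
  let P : Subgroup Q := (S.subgroupOf V).map π
  have hPmem : ∀ y : ↥V, (y : G) ∈ S → π y ∈ P := fun y hy =>
    ⟨y, Subgroup.mem_subgroupOf.mpr hy, rfl⟩
  -- the image of each generator
  have hTX : ∀ j, ∀ x ∈ X j, ∀ hxV : x ∈ V, T ⟨x, hxV⟩ ∈ P := by
    intro j x hx hxV
    let Xb : Subgroup Q := ((X j).subgroupOf V).map π
    have h1 : T ⟨x, hxV⟩ ∈ Xb := by
      rw [hTapply]
      refine Subgroup.prod_mem _ fun b _ => ?_
      refine ⟨cV b ⟨x, hxV⟩, Subgroup.mem_subgroupOf.mpr ?_, rfl⟩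
      exact (Subgroup.mem_normalizer_iff.mp (hXB j b.2) x).mp hx
    obtain ⟨y, hy, hye⟩ := h1
    have hyX : (y : G) ∈ X j := Subgroup.mem_subgroupOf.mp hy
    -- `y` is fixed modulo `N`
    have hfix : ∀ h : B, π (cV h y) = π y := by
      intro h
      rw [← hφ, hye]
      exact hφT h _
    have hact : CoprimeAction B (X j) := ⟨hXB j,
      hcop.coprime_dvd_right (Subgroup.card_dvd_of_le (hXV j)), Or.inl hBs⟩
    have hNinv : B ≤ Subgroup.normalizer ((X j ⊓ N : Subgroup G) : Set G) := by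
      intro b hb
      apply mem_norm
      rintro z ⟨hz1, hz2⟩
      exact ⟨(Subgroup.mem_normalizer_iff.mp (hXB j hb) z).mp hz1,
        (Subgroup.mem_normalizer_iff.mp (hBN hb) z).mp hz2⟩
    obtain ⟨n, hn, d, hd, hyd⟩ := hact.exists_mul_centralizer (N := X j ⊓ N) inf_le_left hNinv hyX (by
      intro a ha
      have h2 : (y : G) * a * (y : G)⁻¹ * a⁻¹ ∈ X j := by
        have h3 := (Subgroup.mem_normalizer_iff.mp (hXB j ha) _).mp ((X j).inv_mem hyX)
        have h4 := (X j).mul_mem hyX h3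
        simpa [mul_assoc] using h4
      refine ⟨h2, ?_⟩
      have h3 := hfix ⟨a, ha⟩
      rw [← div_eq_one, ← map_div, hker] at h3
      have h4 : ((cV ⟨a, ha⟩ y / y : ↥V) : G) = a * y * a⁻¹ * (y : G)⁻¹ := by
        rw [div_eq_mul_inv]
        rfl
      rw [h4] at h3
      have h5 := N.inv_mem h3
      have h6 : (a * (y : G) * a⁻¹ * (y : G)⁻¹)⁻¹ = (y : G) * a * (y : G)⁻¹ * a⁻¹ := by group
      rw [h6] at h5
      exact h5)
    have hdV : d ∈ V := hXV j hd.1
    have hnV : n ∈ V := hXV j hn.1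
    have h7 : y = ⟨n, hnV⟩ * ⟨d, hdV⟩ := Subtype.ext hyd
    rw [← hye, h7, map_mul, (hker _).mpr hn.2, one_mul]
    exact hPmem _ (hXS j hd)
  -- all of `V`
  have hTV : ∀ v : ↥V, T v ∈ P := by
    let K₁ : Subgroup G := (P.comap T).map V.subtype
    have hXK : (⨆ j, X j) ⊔ N ≤ K₁ := by
      refine sup_le (iSup_le fun j x hx => ?_) ?_
      · exact ⟨⟨x, hXV j hx⟩, hTX j x hx _, rfl⟩
      · intro n hn
        refine ⟨⟨n, hNVle hn⟩, ?_, rfl⟩
        have h1 : T ⟨n, hNVle hn⟩ = 1 := by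
          rw [hTapply]
          refine Finset.prod_eq_one fun b _ => ?_
          rw [hker]
          exact (Subgroup.mem_normalizer_iff.mp (hBN b.2) n).mp hn
        change T ⟨n, hNVle hn⟩ ∈ P
        rw [h1]
        exact P.one_mem
    intro v
    obtain ⟨v', hv', hve⟩ := hXK (hgen v.2)
    have : v' = v := Subtype.ext hve
    rw [← this]
    exact hv'
  -- conclusion
  rintro v ⟨hv1, hv2⟩
  have hfixv : ∀ b : B, cV b ⟨v, hv1⟩ = ⟨v, hv1⟩ := by
    intro b
    apply Subtype.ext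
    change (b : G) * v * (b : G)⁻¹ = v
    have h0 := Subgroup.mem_centralizer_iff.mp hv2 b b.2
    calc (b : G) * v * (b : G)⁻¹ = v * b * (b : G)⁻¹ := by rw [h0]
      _ = v := by group
  have hpow : T ⟨v, hv1⟩ = (π ⟨v, hv1⟩) ^ Nat.card B := by
    rw [hTapply]
    simp only [hfixv]
    rw [Finset.prod_const, Finset.card_univ, Nat.card_eq_fintype_card]
  have hQcop : Nat.Coprime (Nat.card B) (Nat.card Q) := by
    refine hcop.coprime_dvd_right ?_
    have h1 := Subgroup.index_dvd_card (N.subgroupOf V)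
    exact h1
  have h8 := mem_of_pow_mem_of_coprime P hQcop (hpow ▸ hTV ⟨v, hv1⟩)
  obtain ⟨s, hs, hse⟩ := h8
  have h9 : π (s⁻¹ * ⟨v, hv1⟩) = 1 := by
    rw [map_mul, map_inv, hse, inv_mul_cancel]
  have h10 := (hker _).mp h9
  have h11 : v = (s : G) * ((s⁻¹ * ⟨v, hv1⟩ : ↥V) : G) := by simp
  rw [h11]
  exact S.mul_mem (Subgroup.mem_subgroupOf.mp hs) (hNS h10)


theorem gen_sup_A (hF : Fam p A Λ) {W N : Subgroup G} (hWA : A ≤ Subgroup.normalizer (W : Set G))
    (hNA : A ≤ Subgroup.normalizer (N : Set G)) :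
    A ≤ Subgroup.normalizer ((genOf p A Λ W ⊔ N : Subgroup G) : Set G) := by
  intro a ha
  apply mem_norm
  have key : genOf p A Λ W ⊔ N ≤ (genOf p A Λ W ⊔ N).comap (MulAut.conj a).toMonoidHom := by
    refine sup_le (iSup_le ?_) ?_
    · rintro ⟨H, hH⟩ x ⟨hx1, hx2⟩
      exact Subgroup.mem_sup_left (le_genOf hH ⟨(Subgroup.mem_normalizer_iff.mp (hWA ha) x).mp hx1,
        hF.inv H hH.1 a ha x hx2⟩)
    · intro n hn
      exact Subgroup.mem_sup_right ((Subgroup.mem_normalizer_iff.mp (hNA ha) n).mp hn)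
  intro z hz
  exact key hz

theorem card_lt {N V : Subgroup G} (h : N < V) : Nat.card N < Nat.card V :=
  lt_of_le_of_ne (Subgroup.card_le_of_le h.le)
    (fun e => (lt_iff_le_not_ge.mp h).2 (Subgroup.eq_of_le_of_card_ge h.le e.ge).ge)

theorem le_centralizer_bot (Y : Subgroup G) : Y ≤ Subgroup.centralizer ((⊥ : Subgroup G) : Set G) := by
  intro y _
  rw [Subgroup.mem_centralizer_iff]
  intro b hb
  have hb1 : b = 1 := Subgroup.mem_bot.mp hb
  rw [hb1, one_mul, mul_one]

/-- **Completeness** of the family inside a solvable `p'`-group. -/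
theorem complete (hA : IsElementaryAbelian p A) (hF : Fam p A Λ) (hAne : A ≠ ⊥) :
    ∀ (n : ℕ) (Y N : Subgroup G), Nat.card Y - Nat.card N = n → N ≤ Y →
      Y ≤ Subgroup.normalizer (N : Set G) → A ≤ Subgroup.normalizer (Y : Set G) →
      A ≤ Subgroup.normalizer (N : Set G) → ¬ p ∣ Nat.card Y → Group.IsSolvable Y →
      Y ≤ genOf p A Λ Y ⊔ N → ∀ H, IsHyp p A H →
      Y ⊓ Subgroup.centralizer (H : Set G) ≤ (Y ⊓ Λ H) ⊔ N := by
  intro n
  induction n using Nat.strong_induction_on with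
  | _ n ih =>
  intro Y N hn hNY hNn hYA hNA hYp hYs hgen H hH
  by_cases hYN : N = Y
  · subst hYN
    exact inf_le_left.trans le_sup_right
  have hcardN : Nat.card N < Nat.card Y := card_lt (lt_of_le_of_ne hNY hYN)
  obtain ⟨V, hNV, hVY, hVn, hVA, hVc, hVmin⟩ := exists_min_step hNY hYN hNn hNA hYA hYs
  have hcardV : Nat.card N < Nat.card V := card_lt hNV
  have hcardVY : Nat.card V ≤ Nat.card Y := Subgroup.card_le_of_le hVY
  have hNVle : N ≤ V := hNV.le
  have hYV := ih (Nat.card Y - Nat.card V) (by omega) Y V rfl hVY hVn hYA hVA hYp hYs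
    (hgen.trans (sup_le_sup_left hNVle _))
  have hVp : ¬ p ∣ Nat.card V := not_dvd_of_le hVY hYp
  have hHA : H ≤ A := hH.1
  rcases hVmin (genOf p A Λ V ⊔ N) le_sup_right (sup_le genOf_le_self hNVle)
    (gen_sup_normal hA hF hVY hVn hNn hgen hVA hVp hNY) (gen_sup_A hF hVA hNA) with h | h
  · -- Case 2: `V` meets the family in `N` only
    have hVΛ : ∀ K, IsHyp p A K → V ⊓ Λ K ≤ N := fun K hK => by
      refine (le_genOf hK).trans ?_
      rw [← h]
      exact le_sup_left
    have hVneY : V ≠ Y := by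
      intro e
      have h1 : Y ≤ N := by
        rw [← h, e]
        exact hgen
      exact hYN (le_antisymm hNY h1)
    obtain ⟨U, hVU, hUY, hUn, hUA, hUc, hUmin⟩ := exists_min_step hVY hVneY hVn hVA hYA hYs
    have hNU : N ≤ U := hNVle.trans hVU.le
    have hUp : ¬ p ∣ Nat.card U := not_dvd_of_le hUY hYp
    have hU₀n := gen_sup_normal hA hF hUY hUn hNn hgen hUA hUp hNY
    have hU₀A := gen_sup_A hF hUA hNA
    have hU₀U : genOf p A Λ U ⊔ N ≤ U := sup_le genOf_le_self hNU
    have hU₀Y' : genOf p A Λ U ⊔ N ≤ Y := hU₀U.trans hUY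
    have hUle : U ≤ (genOf p A Λ U ⊔ N) ⊔ V := by
      refine (gen_hyp (F := ⊥) hA hUA hUp bot_le (Ne.symm hAne) (le_centralizer_bot U)).trans (iSup_le ?_)
      rintro ⟨K, hK, hbot⟩ z ⟨hz1, hz2⟩
      have h1 := hYV K hK ⟨hUY hz1, hz2⟩
      rw [sup_comm] at h1
      obtain ⟨v, hv, l, hl, rfl⟩ := (mem_sup_iff_of_le_normalizer (inf_le_left.trans hVn) _).mp h1
      have hlU : l ∈ U := by
        have h2 := U.mul_mem (U.inv_mem (hVU.le hv)) hz1
        simpa using h2
      exact Subgroup.mul_mem _ (Subgroup.mem_sup_right hv)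
        (Subgroup.mem_sup_left (Subgroup.mem_sup_left (le_genOf hK ⟨hlU, hl.2⟩)))
    have hU₀neN : genOf p A Λ U ⊔ N ≠ N := by
      intro e
      rw [e, sup_eq_right.mpr hNVle] at hUle
      exact (lt_iff_le_not_ge.mp hVU).2 hUle
    by_cases hU₀Y : genOf p A Λ U ⊔ N = Y
    · -- Case 2b: contradiction
      exfalso
      have hUYe : U = Y := le_antisymm hUY (hU₀Y.ge.trans hU₀U)
      subst hUYe
      obtain ⟨H₀, hH₀, hH₀V⟩ : ∃ K, IsHyp p A K ∧ ¬ (U ⊓ Subgroup.centralizer (K : Set G) ≤ V) := by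
        by_contra hno
        push Not at hno
        have h1 := (gen_hyp (F := ⊥) hA hYA hYp bot_le (Ne.symm hAne) (le_centralizer_bot U)).trans
          (iSup_le (fun K : {K : Subgroup G // IsHyp p A K ∧ ⊥ ≤ K} => hno K K.2.1))
        exact hVneY (le_antisymm hVY h1)
      have hH₀A : H₀ ≤ A := hH₀.1
      have hC₁n : U ≤ Subgroup.normalizer (((U ⊓ Subgroup.centralizer (H₀ : Set G)) ⊔ V : Subgroup G) : Set G) := by
        intro y hy
        apply mem_norm
        intro z hz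
        have hzU : z ∈ U := (sup_le inf_le_left hVY) hz
        have h1 : y * z * y⁻¹ * z⁻¹ ∈ V := hUc (Subgroup.commutator_mem_commutator hy hzU)
        have h2 : y * z * y⁻¹ = (y * z * y⁻¹ * z⁻¹) * z := by group
        rw [h2]
        exact Subgroup.mul_mem _ (Subgroup.mem_sup_right h1) hz
      have hC₁A : A ≤ Subgroup.normalizer (((U ⊓ Subgroup.centralizer (H₀ : Set G)) ⊔ V : Subgroup G) : Set G) := by
        intro a ha
        apply mem_norm
        have key : (U ⊓ Subgroup.centralizer (H₀ : Set G)) ⊔ V ≤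
            ((U ⊓ Subgroup.centralizer (H₀ : Set G)) ⊔ V).comap (MulAut.conj a).toMonoidHom := by
          refine sup_le ?_ ?_
          · rintro z ⟨hz1, hz2⟩
            refine Subgroup.mem_sup_left (Subgroup.mem_inf.mpr
              ⟨(Subgroup.mem_normalizer_iff.mp (hYA ha) z).mp hz1, Subgroup.mem_centralizer_iff.mpr ?_⟩)
            intro h hh
            have hac : a * h = h * a :=
              congrArg Subtype.val (hA.1.is_comm.comm (⟨a, ha⟩ : A) ⟨h, hH₀A hh⟩)
            have hzc : h * z = z * h := Subgroup.mem_centralizer_iff.mp hz2 h hh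
            have e1 : h * (a * z * a⁻¹) = a * (h * z) * a⁻¹ := by
              rw [← mul_assoc, ← mul_assoc, ← hac]
              group
            have e2 : (a * z * a⁻¹) * h = a * (z * h) * a⁻¹ := by
              have hac' : a⁻¹ * h = h * a⁻¹ := by
                calc a⁻¹ * h = a⁻¹ * (h * a) * a⁻¹ := by group
                  _ = a⁻¹ * (a * h) * a⁻¹ := by rw [hac]
                  _ = h * a⁻¹ := by group
              rw [mul_assoc (a * z) a⁻¹ h, hac']
              group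
            change h * (a * z * a⁻¹) = (a * z * a⁻¹) * h
            rw [e1, e2, hzc]
          · intro v hv
            exact Subgroup.mem_sup_right ((Subgroup.mem_normalizer_iff.mp (hVA ha) v).mp hv)
        intro z hz
        exact key hz
      have hC₁ : (U ⊓ Subgroup.centralizer (H₀ : Set G)) ⊔ V = U := by
        rcases hUmin _ le_sup_right (sup_le inf_le_left hVY) hC₁n hC₁A with h1 | h1
        · exact absurd (le_sup_left.trans h1.le) hH₀V
        · exact h1
      have hYX : U ≤ (U ⊓ Λ H₀) ⊔ V := by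
        rw [← hC₁]
        refine sup_le (hYV H₀ hH₀) le_sup_right |>.trans ?_
        rw [hC₁]
      have key : ∀ K, IsHyp p A K → U ⊓ Λ K ≤ (U ⊓ Λ H₀) ⊔ N := by
        rintro K hK x ⟨hx1, hx2⟩
        have hXKA := inf_inv (W := U) hF hYA hK.1
        have hact : CoprimeAction H₀ (U ⊓ Λ K) :=
          coprimeAction_of_ea (ea_mono hA hH₀A) (not_dvd_of_le inf_le_left hYp) (hH₀A.trans hXKA)
        have hNinv : H₀ ≤ Subgroup.normalizer (((U ⊓ Λ K) ⊓ N : Subgroup G) : Set G) := by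
          intro h hh
          apply mem_norm
          rintro z ⟨hz1, hz2⟩
          exact ⟨(Subgroup.mem_normalizer_iff.mp (hXKA (hH₀A hh)) z).mp hz1,
            (Subgroup.mem_normalizer_iff.mp (hNA (hH₀A hh)) z).mp hz2⟩
        obtain ⟨n₁, hn₁, c, hc, hxe⟩ := hact.exists_mul_centralizer (N := (U ⊓ Λ K) ⊓ N) inf_le_left hNinv
          ⟨hx1, hx2⟩ (by
            intro h hh
            have h1 := hYX hx1
            rw [sup_comm] at h1
            obtain ⟨v, hv, l, hl, hxvl⟩ :=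
              (mem_sup_iff_of_le_normalizer (inf_le_left.trans hVn) _).mp h1
            have hlc : h * l = l * h :=
              Subgroup.mem_centralizer_iff.mp (hF.cent H₀ hH₀A hl.2) h hh
            have e1 : x * h * x⁻¹ * h⁻¹ = v * (h * v⁻¹ * h⁻¹) := by
              rw [hxvl]
              calc v * l * h * (v * l)⁻¹ * h⁻¹ = v * (l * h) * l⁻¹ * v⁻¹ * h⁻¹ := by group
                _ = v * (h * l) * l⁻¹ * v⁻¹ * h⁻¹ := by rw [hlc]
                _ = _ := by group
            have h2 : x * h * x⁻¹ * h⁻¹ ∈ V := by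
              rw [e1]
              exact V.mul_mem hv ((Subgroup.mem_normalizer_iff.mp (hVA (hH₀A hh)) _).mp (V.inv_mem hv))
            have h3 : x * h * x⁻¹ * h⁻¹ ∈ U ⊓ Λ K := by
              have h4 := (Subgroup.mem_normalizer_iff.mp (hXKA (hH₀A hh)) _).mp
                ((U ⊓ Λ K).inv_mem (⟨hx1, hx2⟩ : x ∈ U ⊓ Λ K))
              have h5 := (U ⊓ Λ K).mul_mem (⟨hx1, hx2⟩ : x ∈ U ⊓ Λ K) h4
              have e2 : x * (h * x⁻¹ * h⁻¹) = x * h * x⁻¹ * h⁻¹ := by group
              rwa [e2] at h5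
            exact ⟨h3, hVΛ K hK ⟨h2, h3.2⟩⟩)
        have hcard : Nat.card A ≤ Nat.card K * p ^ 2 := by
          rw [hK.2, pow_two]
          have hp : p.Prime := Fact.out
          exact Nat.mul_le_mul_left _ (Nat.le_mul_of_pos_left p hp.pos)
        have hcΛ : c ∈ Λ H₀ := by
          have h1 := hF.bal K H₀ hK.1 hH₀A hcard ⟨hc.1.2, hc.2⟩
          exact hF.anti H₀ (K ⊔ H₀) le_sup_right (sup_le hK.1 hH₀A) h1
        rw [hxe, sup_comm]
        exact Subgroup.mul_mem_sup hn₁.2 ⟨hc.1.1, hcΛ⟩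
      have hYall : U ≤ (U ⊓ Λ H₀) ⊔ N :=
        hgen.trans (sup_le (iSup_le fun K => key K.1 K.2) le_sup_right)
      have hVN : V ≤ N := by
        intro v hv
        have h1 := hYall (hVY hv)
        rw [sup_comm] at h1
        obtain ⟨n₁, hn₁, c, hc, rfl⟩ :=
          (mem_sup_iff_of_le_normalizer (inf_le_left.trans hNn) _).mp h1
        have hcV : c ∈ V := by
          have h2 := V.mul_mem (V.inv_mem (hNVle hn₁)) hv
          simpa using h2
        exact N.mul_mem hn₁ (hVΛ H₀ hH₀ ⟨hcV, hc.2⟩)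
      exact (lt_iff_le_not_ge.mp hNV).2 hVN
    · -- Case 2a: two applications of the induction hypothesis
      have hcardU₀ : Nat.card (genOf p A Λ U ⊔ N : Subgroup G) < Nat.card Y :=
        card_lt (lt_of_le_of_ne hU₀Y' hU₀Y)
      have hcardU₀' : Nat.card N < Nat.card (genOf p A Λ U ⊔ N : Subgroup G) :=
        card_lt (lt_of_le_of_ne le_sup_right (Ne.symm hU₀neN))
      have hsolvU₀ : Group.IsSolvable (genOf p A Λ U ⊔ N : Subgroup G) :=
        Group.isSolvable_of_isSolvable_injective (Subgroup.inclusion_injective hU₀Y')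
      have ih1 := ih (Nat.card (genOf p A Λ U ⊔ N : Subgroup G) - Nat.card N) (by omega)
        (genOf p A Λ U ⊔ N) N rfl le_sup_right (hU₀Y'.trans hNn) hU₀A hNA
        (not_dvd_of_le hU₀Y' hYp) hsolvU₀ (by
          refine sup_le (iSup_le ?_) le_sup_right
          rintro ⟨K, hK⟩ z ⟨hz1, hz2⟩
          refine Subgroup.mem_sup_left (le_genOf hK ⟨?_, hz2⟩)
          exact Subgroup.mem_sup_left (le_genOf hK ⟨hz1, hz2⟩)) H hH
      have ih2 := ih (Nat.card Y - Nat.card (genOf p A Λ U ⊔ N : Subgroup G)) (by omega)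
        Y (genOf p A Λ U ⊔ N) rfl hU₀Y' hU₀n hYA hU₀A hYp hYs
        (hgen.trans (sup_le_sup_left le_sup_right _)) H hH
      rintro x ⟨hx1, hx2⟩
      have h1 := ih2 ⟨hx1, hx2⟩
      rw [sup_comm] at h1
      obtain ⟨u, hu, l, hl, rfl⟩ :=
        (mem_sup_iff_of_le_normalizer (inf_le_left.trans hU₀n) _).mp h1
      have hlC : l ∈ Subgroup.centralizer (H : Set G) := hF.cent H hHA hl.2
      have huC : u ∈ Subgroup.centralizer (H : Set G) := by
        have h2 := (Subgroup.centralizer (H : Set G)).mul_mem hx2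
          ((Subgroup.centralizer (H : Set G)).inv_mem hlC)
        simpa using h2
      have h3 := ih1 ⟨hu, huC⟩
      have h4 : (genOf p A Λ U ⊔ N) ⊓ Λ H ⊔ N ≤ Y ⊓ Λ H ⊔ N :=
        sup_le_sup_right (inf_le_inf_right _ hU₀Y') _
      exact Subgroup.mul_mem _ (h4 h3) (Subgroup.mem_sup_left hl)
  · -- Case 1: `V` generated by the family modulo `N`
    rintro x ⟨hx1, hx2⟩
    have h1 := hYV H hH ⟨hx1, hx2⟩
    rw [sup_comm] at h1
    obtain ⟨v, hv, l, hl, rfl⟩ := (mem_sup_iff_of_le_normalizer (inf_le_left.trans hVn) _).mp h1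
    have hlC : l ∈ Subgroup.centralizer (H : Set G) := hF.cent H hHA hl.2
    have hvC : v ∈ Subgroup.centralizer (H : Set G) := by
      have h2 := (Subgroup.centralizer (H : Set G)).mul_mem hx2
        ((Subgroup.centralizer (H : Set G)).inv_mem hlC)
      simpa using h2
    have hcopH : Nat.Coprime (Nat.card H) (Nat.card V) := coprime_of_ea (ea_mono hA hHA) hVp
    have hHs : Group.IsSolvable H := Group.isSolvable_of_comm (fun a b => (ea_mono hA hHA).1.is_comm.comm a b)
    have hS := abel_cent (V := V) (N := N) (S := (V ⊓ Λ H) ⊔ N) (B := H)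
      (fun j : {K : Subgroup G // IsHyp p A K} => V ⊓ Λ (j : Subgroup G))
      le_sup_right (sup_le inf_le_left hNVle) (hVY.trans hNn) hVc (hHA.trans hVA) (hHA.trans hNA)
      hcopH hHs (fun j => inf_le_left) (fun j => hHA.trans (inf_inv hF hVA j.2.1))
      (by
        change V ≤ genOf p A Λ V ⊔ N
        exact h.ge)
      (by
        rintro ⟨K, hK⟩ z ⟨⟨hz1, hz2⟩, hz3⟩
        have hcard : Nat.card A ≤ Nat.card K * p ^ 2 := by
          rw [hK.2, pow_two]
          have hp : p.Prime := Fact.out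
          exact Nat.mul_le_mul_left _ (Nat.le_mul_of_pos_left p hp.pos)
        have h2 := hF.bal K H hK.1 hHA hcard ⟨hz2, hz3⟩
        have h3 := hF.anti H (K ⊔ H) le_sup_right (sup_le hK.1 hHA) h2
        exact Subgroup.mem_sup_left ⟨hz1, h3⟩)
    have h5 := hS ⟨hv, hvC⟩
    have h6 : V ⊓ Λ H ⊔ N ≤ Y ⊓ Λ H ⊔ N := sup_le_sup_right (inf_le_inf_right _ hVY) _
    exact Subgroup.mul_mem _ (h6 h5) (Subgroup.mem_sup_left hl)


end Core

section Delta

open Cfsg.Agent.Lib.Basic

theorem delta_mem_iff {F : Subgroup G} {x : G} :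
    x ∈ signalizerDelta p F ↔ ∀ d ∈ F, d ≠ 1 → x ∈ centralizerPPrimeCore p d := by
  rw [signalizerDelta, Subgroup.mem_iInf]
  constructor
  · intro h d hd hd1
    exact h ⟨d, hd, hd1⟩
  · rintro h ⟨d, hd, hd1⟩
    exact h d hd hd1

theorem core_le (d : G) : centralizerPPrimeCore p d ≤ Subgroup.centralizer ({d} : Set G) :=
  Subgroup.map_subtype_le _

theorem core_inv {d u x : G} (hu : u ∈ Subgroup.centralizer ({d} : Set G))
    (hx : x ∈ centralizerPPrimeCore p d) : u * x * u⁻¹ ∈ centralizerPPrimeCore p d := by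
  obtain ⟨x', hx', rfl⟩ := hx
  haveI := pPrimeCore_normal (G := ↥(Subgroup.centralizer ({d} : Set G))) p
  refine ⟨⟨u, hu⟩ * x' * (⟨u, hu⟩ : ↥(Subgroup.centralizer ({d} : Set G)))⁻¹, ?_, rfl⟩
  exact (inferInstance : (pPrimeCore p ↥(Subgroup.centralizer ({d} : Set G))).Normal).conj_mem x' hx' _

theorem core_not_dvd (d : G) : ¬ p ∣ Nat.card (centralizerPPrimeCore p d) := by
  have hp : p.Prime := Fact.out
  have h1 : Nat.card (centralizerPPrimeCore p d) =
      Nat.card (pPrimeCore p ↥(Subgroup.centralizer ({d} : Set G))) :=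
    Subgroup.card_map_of_injective (Subgroup.subtype_injective _)
  rw [h1]
  intro h2
  have h3 := pPrimeCore_coprime (G := ↥(Subgroup.centralizer ({d} : Set G))) p
  exact (Nat.Prime.coprime_iff_not_dvd hp).mp h3.symm h2

theorem mem_cent_singleton_of_sup {A F F' : Subgroup G} {x d : G}
    (hF : x ∈ Subgroup.centralizer (F : Set G)) (hF' : x ∈ Subgroup.centralizer (F' : Set G))
    (hd : d ∈ F ⊔ F') : x ∈ Subgroup.centralizer ({d} : Set G) := by
  have h1 : F ≤ Subgroup.centralizer ({x} : Set G) := by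
    intro b hb
    rw [Subgroup.mem_centralizer_iff]
    intro c hc
    rw [Set.mem_singleton_iff] at hc
    subst hc
    exact (Subgroup.mem_centralizer_iff.mp hF b hb).symm
  have h2 : F' ≤ Subgroup.centralizer ({x} : Set G) := by
    intro b hb
    rw [Subgroup.mem_centralizer_iff]
    intro c hc
    rw [Set.mem_singleton_iff] at hc
    subst hc
    exact (Subgroup.mem_centralizer_iff.mp hF' b hb).symm
  have h3 := (sup_le h1 h2) hd
  rw [Subgroup.mem_centralizer_iff]
  intro c hc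
  rw [Set.mem_singleton_iff] at hc
  subst hc
  exact (Subgroup.mem_centralizer_iff.mp h3 x rfl).symm

theorem delta_bal {A : Subgroup G} {k : ℕ} (hbal : IsKBalanced p k G) (hA : IsElementaryAbelian p A)
    {F F' : Subgroup G} (hFA : F ≤ A) (hF'A : F' ≤ A) (hcard : p ^ k ≤ Nat.card F) :
    signalizerDelta p F ⊓ Subgroup.centralizer (F' : Set G) ≤ signalizerDelta p (F ⊔ F') := by
  have hp : p.Prime := Fact.out
  rintro x ⟨hx1, hx2⟩
  refine delta_mem_iff.mpr ?_
  intro d hd hd1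
  have hdA : d ∈ A := (sup_le hFA hF'A) hd
  obtain ⟨D, -, hDF, hD⟩ := exists_between_card (F := (⊥ : Subgroup G)) (H := F) (n := 0) (k := k)
    (isPGroup_of_ea (ea_mono hA hFA)) bot_le (by simp) (Nat.zero_le _) hcard
  have hDA : D ≤ A := hDF.trans hFA
  have hord : orderOf d = p := orderOf_eq_prime (hA.2 d hdA) hd1
  have hcomm : ∀ a ∈ D, a * d = d * a := fun a ha =>
    congrArg Subtype.val (hA.1.is_comm.comm (⟨a, hDA ha⟩ : A) ⟨d, hdA⟩)
  refine hbal D (ea_mono hA hDA) hD d hord hcomm ⟨?_, ?_⟩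
  · refine delta_mem_iff.mpr ?_
    intro c hc hc1
    exact (delta_mem_iff.mp hx1) c (hDF hc) hc1
  · have hxF : x ∈ Subgroup.centralizer (F : Set G) := by
      rw [Subgroup.mem_centralizer_iff]
      intro g hg
      by_cases hg1 : g = 1
      · rw [hg1, one_mul, mul_one]
      · have h1 := core_le g ((delta_mem_iff.mp hx1) g hg hg1)
        exact (Subgroup.mem_centralizer_iff.mp h1 g rfl)
    exact mem_cent_singleton_of_sup (A := A) hxF hx2 hd

theorem fam_delta {A : Subgroup G} {k : ℕ} (hbal : IsKBalanced p k G) (hA : IsElementaryAbelian p A)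
    (hAk : p ^ (k + 2) ≤ Nat.card A) : Fam p A (fun F => signalizerDelta p F) where
  inv := by
    intro F hFA a ha x hx
    change a * x * a⁻¹ ∈ signalizerDelta p F
    rw [delta_mem_iff]
    intro d hd hd1
    refine core_inv ?_ ((delta_mem_iff.mp hx) d hd hd1)
    rw [Subgroup.mem_centralizer_iff]
    intro c hc
    rw [Set.mem_singleton_iff] at hc
    subst hc
    exact congrArg Subtype.val (hA.1.is_comm.comm (⟨c, hFA hd⟩ : A) ⟨a, ha⟩)
  anti := by
    intro F F' hFF' _ x hx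
    change x ∈ signalizerDelta p F
    rw [delta_mem_iff]
    intro d hd hd1
    exact (delta_mem_iff.mp hx) d (hFF' hd) hd1
  cent := by
    intro F _ x hx
    refine Subgroup.mem_centralizer_iff.mpr ?_
    intro g hg
    by_cases hg1 : g = 1
    · rw [hg1, one_mul, mul_one]
    · have h1 := core_le g ((delta_mem_iff.mp hx) g hg hg1)
      exact (Subgroup.mem_centralizer_iff.mp h1 g rfl)
  bal := by
    intro F F' hFA hF'A hcard
    refine delta_bal hbal hA hFA hF'A ?_
    have hp : p.Prime := Fact.out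
    have h1 : p ^ k * p ^ 2 ≤ Nat.card F * p ^ 2 := by
      rw [← pow_add]
      exact hAk.trans hcard
    exact Nat.le_of_mul_le_mul_right h1 (pow_pos hp.pos 2)

end Delta

end Cfsg.Agent.Lib.PGroups.KBalF
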