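import Mathlib

/-! Metacyclic groups given by a presentation: a permutation model and a normal form. -/

set_option autoImplicit false

namespace Cfsg.Agent.Lib.PGroups.MetS

open Subgroup

/-- The relators. -/
abbrev rels (M n R T : ℕ) : Set (FreeGroup Bool) :=
  {FreeGroup.of true ^ M, (FreeGroup.of false) ^ n * (FreeGroup.of true ^ T)⁻¹,
    FreeGroup.of false * FreeGroup.of true * (FreeGroup.of false)⁻¹ * (FreeGroup.of true ^ R)⁻¹}

/-- The presented group. -/
abbrev Pres (M n R T : ℕ) := PresentedGroup (rels M n R T)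

/-- The generator `a`. -/
abbrev aP (M n R T : ℕ) : Pres M n R T := PresentedGroup.of true

/-- The generator `b`. -/
abbrev bP (M n R T : ℕ) : Pres M n R T := PresentedGroup.of false

section pres

variable {M n R T : ℕ}

theorem aP_pow : aP M n R T ^ M = 1 := by
  have h : (FreeGroup.of true ^ M : FreeGroup Bool) ∈ rels M n R T := Set.mem_insert _ _
  have := PresentedGroup.one_of_mem h
  rwa [map_pow] at this

theorem bP_pow : bP M n R T ^ n = aP M n R T ^ T := by
  have h : ((FreeGroup.of false) ^ n * (FreeGroup.of true ^ T)⁻¹ : FreeGroup Bool) ∈ rels M n R T :=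
    Set.mem_insert_of_mem _ (Set.mem_insert _ _)
  have := PresentedGroup.one_of_mem h
  rw [map_mul, map_inv, map_pow, map_pow] at this
  exact mul_inv_eq_one.mp this

theorem bP_conj : bP M n R T * aP M n R T * (bP M n R T)⁻¹ = aP M n R T ^ R := by
  have h : (FreeGroup.of false * FreeGroup.of true * (FreeGroup.of false)⁻¹ *
      (FreeGroup.of true ^ R)⁻¹ : FreeGroup Bool) ∈ rels M n R T :=
    Set.mem_insert_of_mem _ (Set.mem_insert_of_mem _ rfl)
  have := PresentedGroup.one_of_mem h
  rw [map_mul, map_mul, map_mul, map_inv, map_inv, map_pow] at this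
  exact mul_inv_eq_one.mp this

/-- The homomorphism out of the presented group. -/
noncomputable def lift {H : Type*} [Group H] (x y : H) (h1 : x ^ M = 1) (h2 : y ^ n = x ^ T)
    (h3 : y * x * y⁻¹ = x ^ R) : Pres M n R T →* H :=
  PresentedGroup.toGroup (f := fun c : Bool => if c then x else y) (by
    intro r hr
    rcases hr with rfl | rfl | rfl
    · simp [h1]
    · simp [h2]
    · simp [h3])

theorem lift_a {H : Type*} [Group H] (x y : H) (h1 : x ^ M = 1) (h2 : y ^ n = x ^ T)
    (h3 : y * x * y⁻¹ = x ^ R) : lift (M := M) (n := n) (R := R) (T := T) x y h1 h2 h3 (aP M n R T) = x := by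
  show PresentedGroup.toGroup _ (PresentedGroup.of true) = x
  rw [PresentedGroup.toGroup.of]
  rfl

theorem lift_b {H : Type*} [Group H] (x y : H) (h1 : x ^ M = 1) (h2 : y ^ n = x ^ T)
    (h3 : y * x * y⁻¹ = x ^ R) : lift (M := M) (n := n) (R := R) (T := T) x y h1 h2 h3 (bP M n R T) = y := by
  show PresentedGroup.toGroup _ (PresentedGroup.of false) = y
  rw [PresentedGroup.toGroup.of]
  rfl

/-- Normal form of elements, in any group generated by elements with these relations. -/
theorem normal_form {H : Type*} [Group H] {x y : H} (hM : 0 < M) (hn : 0 < n)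
    (hgen : closure ({x, y} : Set H) = ⊤) (h1 : x ^ M = 1) (h2 : y ^ n = x ^ T)
    (h3 : y * x * y⁻¹ = x ^ R) (g : H) : ∃ i j : ℕ, i < M ∧ j < n ∧ g = x ^ i * y ^ j := by
  -- moving `x` past powers of `y`
  have hmove : ∀ j : ℕ, ∃ s : ℕ, y ^ j * x = x ^ s * y ^ j := by
    intro j
    induction j with
    | zero => exact ⟨1, by simp⟩
    | succ j ih =>
      obtain ⟨s, hs⟩ := ih
      refine ⟨R * s, ?_⟩
      have h4 : y * x = x ^ R * y := by
        rw [← h3]; group
      have h5 : ∀ k : ℕ, y * x ^ k = x ^ (R * k) * y := by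
        intro k
        induction k with
        | zero => simp
        | succ k ihk =>
          rw [pow_succ, ← mul_assoc, ihk, mul_assoc, h4, ← mul_assoc, mul_add, mul_one, pow_add]
      rw [pow_succ', mul_assoc, hs, ← mul_assoc, h5, mul_assoc]
  have hS : ∀ g : H, ∃ i j : ℕ, g = x ^ i * y ^ j := by
    intro g
    have hg : g ∈ closure ({x, y} : Set H) := by rw [hgen]; trivial
    have hk : ∀ j k : ℕ, ∃ s : ℕ, y ^ j * x ^ k = x ^ s * y ^ j := by
      intro j k
      induction k with
      | zero => exact ⟨0, by simp⟩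
      | succ k ihk =>
        obtain ⟨s, hs⟩ := ihk
        obtain ⟨s', hs'⟩ := hmove j
        refine ⟨s + s', ?_⟩
        rw [pow_succ, ← mul_assoc, hs, mul_assoc, hs', ← mul_assoc, pow_add, mul_assoc (x ^ s)]
    have hinvx : x⁻¹ = x ^ (M - 1) := by
      rw [inv_eq_iff_mul_eq_one, ← pow_succ']
      rw [show M - 1 + 1 = M by omega, h1]
    have hinvy : y⁻¹ = y ^ (n - 1) * x ^ ((M - 1) * T) := by
      rw [inv_eq_iff_mul_eq_one, ← mul_assoc, ← pow_succ']
      rw [show n - 1 + 1 = n by omega, h2, ← pow_add]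
      rw [show T + (M - 1) * T = M * T by
        have : M = M - 1 + 1 := by omega
        conv_rhs => rw [this]
        ring]
      rw [pow_mul, h1, one_pow]
    induction hg using Subgroup.closure_induction_right with
    | one => exact ⟨0, 0, by simp⟩
    | mul_right u _ v hv ih =>
      obtain ⟨i, j, hu⟩ := ih
      rcases hv with hv | hv
      · obtain ⟨s, hs⟩ := hmove j
        exact ⟨i + s, j, by rw [hu, hv, mul_assoc, hs, ← mul_assoc, pow_add]⟩
      · have hv' : v = y := hv
        exact ⟨i, j + 1, by rw [hu, hv', pow_succ, mul_assoc]⟩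
    | mul_inv_cancel u _ v hv ih =>
      obtain ⟨i, j, hu⟩ := ih
      rcases hv with hv | hv
      · obtain ⟨s, hs⟩ := hk j (M - 1)
        exact ⟨i + s, j, by rw [hu, hv, hinvx, mul_assoc, hs, ← mul_assoc, pow_add]⟩
      · have hv' : v = y := hv
        obtain ⟨s, hs⟩ := hk (j + (n - 1)) ((M - 1) * T)
        refine ⟨i + s, j + (n - 1), ?_⟩
        rw [hu, hv', hinvy, mul_assoc, ← mul_assoc (y ^ j), ← pow_add, hs, ← mul_assoc, pow_add x i s]
  obtain ⟨i, j, rfl⟩ := hS g
  refine ⟨(i + T * (j / n)) % M, j % n, Nat.mod_lt _ hM, Nat.mod_lt _ hn, ?_⟩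
  have hcomm : ∀ k : ℕ, y ^ (n * k) = x ^ (T * k) := by
    intro k
    rw [pow_mul, h2, pow_mul]
  have h6 : y ^ j = y ^ (n * (j / n)) * y ^ (j % n) := by
    rw [← pow_add, Nat.div_add_mod]
  have h7 : x ^ (i + T * (j / n)) = x ^ ((i + T * (j / n)) % M) := by
    conv_lhs => rw [← Nat.mod_add_div (i + T * (j / n)) M, pow_add, pow_mul, h1, one_pow, mul_one]
  rw [← h7, pow_add, mul_assoc, ← hcomm, ← h6]

end pres

section model

variable (M n R T : ℕ) [NeZero M] [NeZero n]

/-- The set acted on. -/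
abbrev XX := ZMod M × ZMod n

variable {M n R T}

/-- The shift. -/
def alphaP : Equiv.Perm (XX M n) where
  toFun p := (p.1 + 1, p.2)
  invFun p := (p.1 - 1, p.2)
  left_inv p := by simp
  right_inv p := by simp

/-- The twist, as a function. -/
def betaF (R T : ℕ) (p : XX M n) : XX M n :=
  ((R : ZMod M) * p.1 + (if p.2.val + 1 = n then (T : ZMod M) else 0), p.2 + 1)

theorem betaF_injective (hR : R ^ n ≡ 1 [MOD M]) : Function.Injective (betaF (M := M) (n := n) R T) := by
  intro p q h
  have h2 : p.2 + 1 = q.2 + 1 := congrArg Prod.snd h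
  have h3 : p.2 = q.2 := add_right_cancel h2
  have h4 := congrArg Prod.fst h
  simp only [betaF, h3] at h4
  have h5 : (R : ZMod M) * p.1 = (R : ZMod M) * q.1 := add_right_cancel h4
  have h6 : (R : ZMod M) ^ n = 1 := by
    have := (ZMod.natCast_eq_natCast_iff (R ^ n) 1 M).mpr hR
    simpa using this
  have hn : n ≠ 0 := NeZero.ne n
  have h7 : (R : ZMod M) ^ (n - 1) * (R : ZMod M) = 1 := by
    rw [← pow_succ, show n - 1 + 1 = n by omega, h6]
  have h8 : p.1 = q.1 := by
    have := congrArg (fun z => (R : ZMod M) ^ (n - 1) * z) h5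
    simp only [← mul_assoc, h7, one_mul] at this
    exact this
  exact Prod.ext h8 h3

/-- The twist. -/
noncomputable def betaP (hR : R ^ n ≡ 1 [MOD M]) : Equiv.Perm (XX M n) :=
  Equiv.ofBijective (betaF R T) (Finite.injective_iff_bijective.mp (betaF_injective hR))

theorem betaP_apply (hR : R ^ n ≡ 1 [MOD M]) (p : XX M n) :
    betaP (T := T) hR p = betaF R T p := rfl

theorem alphaP_pow (k : ℕ) (p : XX M n) : (alphaP ^ k) p = (p.1 + (k : ZMod M), p.2) := by
  induction k with
  | zero => simp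
  | succ k ih =>
    rw [pow_succ', Equiv.Perm.mul_apply, ih]
    show (p.1 + (k : ZMod M) + 1, p.2) = _
    push_cast
    rw [add_assoc]

theorem betaP_pow (hR : R ^ n ≡ 1 [MOD M]) (hT : T * R ≡ T [MOD M]) (k : ℕ) (p : XX M n) :
    (betaP (T := T) hR ^ k) p = ((R : ZMod M) ^ k * p.1 + (T : ZMod M) * (((p.2.val + k) / n : ℕ) : ZMod M), p.2 + (k : ZMod n)) := by
  have hTR : (T : ZMod M) * (R : ZMod M) = (T : ZMod M) := by
    have := (ZMod.natCast_eq_natCast_iff (T * R) T M).mpr hT
    simpa using this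
  have hnpos : 0 < n := Nat.pos_of_ne_zero (NeZero.ne n)
  induction k with
  | zero =>
    have h0 : p.2.val / n = 0 := Nat.div_eq_of_lt (ZMod.val_lt _)
    simp [h0]
  | succ k ih =>
    rw [pow_succ', Equiv.Perm.mul_apply, ih, betaP_apply]
    simp only [betaF]
    have hval : (p.2 + (k : ZMod n)).val = (p.2.val + k) % n := by
      rw [ZMod.val_add, ZMod.val_natCast]
      simp
    rw [hval]
    have hd : ((p.2.val + k) % n + 1 = n) ↔ n ∣ p.2.val + k + 1 := by
      constructor
      · intro h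
        have h1 := Nat.mod_add_div (p.2.val + k) n
        refine ⟨(p.2.val + k) / n + 1, ?_⟩
        rw [mul_add, mul_one]
        omega
      · intro h
        have h1 := Nat.mod_add_div (p.2.val + k) n
        have h2 := Nat.mod_lt (p.2.val + k) hnpos
        have h3 : n ∣ (p.2.val + k) % n + 1 := by
          have h4 : p.2.val + k + 1 = (p.2.val + k) % n + 1 + n * ((p.2.val + k) / n) := by omega
          rw [h4] at h
          exact (Nat.dvd_add_left (dvd_mul_right _ _)).mp h
        exact le_antisymm (Nat.le_of_lt_succ (by omega)) (Nat.le_of_dvd (by omega) h3)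
    have hsucc : (p.2.val + (k + 1)) / n = (p.2.val + k) / n + if n ∣ p.2.val + k + 1 then 1 else 0 := by
      rw [← add_assoc, Nat.succ_div]
    apply Prod.ext
    · simp only
      rw [hsucc]
      have hTw : (R : ZMod M) * ((T : ZMod M) * (((p.2.val + k) / n : ℕ) : ZMod M)) =
          (T : ZMod M) * (((p.2.val + k) / n : ℕ) : ZMod M) := by
        rw [← mul_assoc, mul_comm (R : ZMod M), hTR]
      rw [mul_add, hTw, ← mul_assoc, ← pow_succ']
      by_cases hdvd : n ∣ p.2.val + k + 1
      · rw [if_pos (hd.mpr hdvd), if_pos hdvd]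
        push_cast
        ring
      · rw [if_neg (fun h => hdvd (hd.mp h)), if_neg hdvd]
        simp
    · simp only
      push_cast
      ring

/-- The permutation model has the relations and separates normal forms. -/
theorem exists_model (hR : R ^ n ≡ 1 [MOD M]) (hT : T * R ≡ T [MOD M]) :
    ∃ x y : Equiv.Perm (XX M n), x ^ M = 1 ∧ y ^ n = x ^ T ∧ y * x * y⁻¹ = x ^ R ∧
      ∀ i j : ℕ, j < n → x ^ i * y ^ j = 1 → M ∣ i ∧ j = 0 := by
  refine ⟨alphaP, betaP (T := T) hR, ?_, ?_, ?_, ?_⟩
  · ext p <;> simp [alphaP_pow]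
  · ext p
    · rw [betaP_pow hR hT, alphaP_pow]
      have h6 : (R : ZMod M) ^ n = 1 := by
        have := (ZMod.natCast_eq_natCast_iff (R ^ n) 1 M).mpr hR
        simpa using this
      have hnpos : 0 < n := Nat.pos_of_ne_zero (NeZero.ne n)
      have h7 : (p.2.val + n) / n = 1 := by
        rw [Nat.add_div_right _ hnpos, Nat.div_eq_of_lt (ZMod.val_lt _)]
      simp [h6, h7]
    · rw [betaP_pow hR hT, alphaP_pow]
      simp
  · rw [mul_inv_eq_iff_eq_mul]
    ext p
    · rw [Equiv.Perm.mul_apply, Equiv.Perm.mul_apply, alphaP_pow, betaP_apply, betaP_apply]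
      simp only [betaF]
      show ((R : ZMod M) * (p.1 + 1) + (if p.2.val + 1 = n then (T : ZMod M) else 0)) = _
      ring
    · rw [Equiv.Perm.mul_apply, Equiv.Perm.mul_apply, alphaP_pow, betaP_apply, betaP_apply]
      rfl
  · intro i j hj h
    have h1 := congrFun (congrArg DFunLike.coe h) ((0 : ZMod M), (0 : ZMod n))
    rw [Equiv.Perm.mul_apply, betaP_pow hR hT, alphaP_pow, Equiv.Perm.one_apply] at h1
    have h2 := congrArg Prod.fst h1
    have h3 := congrArg Prod.snd h1
    simp only [ZMod.val_zero, zero_add] at h2 h3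
    have hjn : j / n = 0 := Nat.div_eq_of_lt hj
    simp only [hjn] at h2
    simp at h2
    constructor
    · exact (ZMod.natCast_eq_zero_iff i M).mp h2
    · have h4 := (ZMod.natCast_eq_zero_iff j n).mp h3
      exact Nat.eq_zero_of_dvd_of_lt h4 hj

end model

section facts

variable {M n R T : ℕ}

theorem closure_aP_bP : closure ({aP M n R T, bP M n R T} : Set (Pres M n R T)) = ⊤ := by
  rw [← PresentedGroup.closure_range_of (rels M n R T)]
  congr 1
  ext g
  constructor
  · rintro (rfl | rfl)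
    · exact ⟨true, rfl⟩
    · exact ⟨false, rfl⟩
  · rintro ⟨c, rfl⟩
    cases c
    · exact Or.inr rfl
    · exact Or.inl rfl

theorem pres_form (hM : 0 < M) (hn : 0 < n) (g : Pres M n R T) :
    ∃ i j : ℕ, i < M ∧ j < n ∧ g = aP M n R T ^ i * bP M n R T ^ j :=
  normal_form hM hn closure_aP_bP aP_pow bP_pow bP_conj g

theorem pres_finite (hM : 0 < M) (hn : 0 < n) : Finite (Pres M n R T) := by
  refine Finite.of_surjective (fun p : Fin M × Fin n => aP M n R T ^ (p.1 : ℕ) * bP M n R T ^ (p.2 : ℕ)) ?_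
  intro g
  obtain ⟨i, j, hi, hj, rfl⟩ := pres_form hM hn g
  exact ⟨(⟨i, hi⟩, ⟨j, hj⟩), rfl⟩

theorem pres_sep (hM : 0 < M) (hn : 0 < n) (hR : R ^ n ≡ 1 [MOD M]) (hT : T * R ≡ T [MOD M])
    (i j : ℕ) (hj : j < n) (h : aP M n R T ^ i * bP M n R T ^ j = 1) : M ∣ i ∧ j = 0 := by
  haveI : NeZero M := ⟨hM.ne'⟩
  haveI : NeZero n := ⟨hn.ne'⟩
  obtain ⟨x, y, h1, h2, h3, h4⟩ := exists_model (M := M) (n := n) hR hT
  have h5 := congrArg (lift (M := M) (n := n) (R := R) (T := T) x y h1 h2 h3) h
  rw [map_mul, map_pow, map_pow, lift_a, lift_b, map_one] at h5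
  exact h4 i j hj h5

theorem orderOf_aP (hM : 0 < M) (hn : 0 < n) (hR : R ^ n ≡ 1 [MOD M]) (hT : T * R ≡ T [MOD M]) :
    orderOf (aP M n R T) = M := by
  apply Nat.dvd_antisymm (orderOf_dvd_of_pow_eq_one aP_pow)
  have := pres_sep hM hn hR hT (orderOf (aP M n R T)) 0 hn (by simp [pow_orderOf_eq_one])
  exact this.1

end facts

end Cfsg.Agent.Lib.PGroups.MetS
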