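import Mathlib

/-! The norm identity for a Frobenius group `⟨y⟩ ⋊ ⟨u⟩` acting on an abelian group: if `y` is fixed
point free and the norm of `u` vanishes, then the whole group has exponent dividing `|y|`. -/

set_option autoImplicit false

namespace Cfsg.Agent.Lib.PGroups
namespace NormId

open Finset

theorem norm_abstract {V D : Type*} [CommGroup V] [Group D] (ρ : D →* MulAut V) (Y : Subgroup D)
    [Finite Y] (u : D) {p : ℕ} (hp : p.Prime)
    (hnorm : ∀ z ∈ Y, u * z * u⁻¹ ∈ Y)
    (hzu : ∀ z ∈ Y, (z * u) ^ p = 1)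
    (hNu : ∀ z ∈ Y, ∀ v : V, ∏ i ∈ Finset.range p, ρ ((z * u) ^ i) v = 1)
    (hY : ∀ v : V, ∀ [Fintype Y], ∏ t : Y, ρ (t : D) v = 1) (v : V) : v ^ Nat.card Y = 1 := by
  classical
  have := Fintype.ofFinite Y
  have h1 : ∏ z : Y, ∏ i ∈ Finset.range p, ρ (((z : D) * u) ^ i) v = 1 :=
    Finset.prod_eq_one fun z _ => hNu z z.2 v
  rw [Finset.prod_comm] at h1
  have hpow : ∀ (i : ℕ) (z : D), z ∈ Y → (z * u) ^ i * u⁻¹ ^ i ∈ Y := by
    intro i
    induction i with
    | zero => intro z _; simp [Y.one_mem]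
    | succ n ih =>
      intro z hz
      have e : (z * u) ^ (n + 1) * u⁻¹ ^ (n + 1) =
          ((z * u) ^ n * u⁻¹ ^ n) * (u ^ n * z * (u ^ n)⁻¹) := by
        rw [pow_succ (z * u), pow_succ' u⁻¹, inv_pow]
        group
      rw [e]
      refine Y.mul_mem (ih z hz) ?_
      clear e ih
      induction n with
      | zero => simpa using hz
      | succ k ihk =>
        have e2 : u ^ (k + 1) * z * (u ^ (k + 1))⁻¹ = u * (u ^ k * z * (u ^ k)⁻¹) * u⁻¹ := by
          rw [pow_succ' u]
          group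
        rw [e2]
        exact hnorm _ ihk
  have hterm : ∀ i ∈ Finset.range p, i ≠ 0 → ∏ z : Y, ρ (((z : D) * u) ^ i) v = 1 := by
    intro i hi hi0
    have hip : i < p := Finset.mem_range.mp hi
    have hcop : Nat.Coprime i p := by
      rw [Nat.coprime_comm]
      exact (Nat.Prime.coprime_iff_not_dvd hp).mpr
        (fun h => absurd (Nat.le_of_dvd (Nat.pos_of_ne_zero hi0) h) (by omega))
    obtain ⟨j, -, hj⟩ := Nat.exists_mul_mod_eq_one_of_coprime hcop hp.one_lt
    let τ : Y → Y := fun z => ⟨((z : D) * u) ^ i * u⁻¹ ^ i, hpow i z z.2⟩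
    have hτ : Function.Injective τ := by
      intro a b hab
      have h2 : ((a : D) * u) ^ i * u⁻¹ ^ i = ((b : D) * u) ^ i * u⁻¹ ^ i :=
        congrArg Subtype.val hab
      have h3 : ((a : D) * u) ^ i = ((b : D) * u) ^ i := mul_right_cancel h2
      have h4 : ∀ z ∈ Y, ((z * u) ^ i) ^ j = z * u := by
        intro z hz
        rw [← pow_mul]
        have h5 : orderOf (z * u) ∣ p := orderOf_dvd_of_pow_eq_one (hzu z hz)
        have h6 : (z * u) ^ p = 1 := hzu z hz
        calc (z * u) ^ (i * j) = (z * u) ^ (i * j % p + p * (i * j / p)) := by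
              rw [Nat.mod_add_div]
          _ = z * u := by rw [pow_add, pow_mul, h6, one_pow, mul_one, hj, pow_one]
      have h7 := h4 a a.2
      have h8 := h4 b b.2
      rw [h3, h8] at h7
      exact Subtype.ext (mul_right_cancel h7).symm
    have hτb : Function.Bijective τ := ⟨hτ, Finite.surjective_of_injective hτ⟩
    have hτe : ∀ z : Y, ((z : D) * u) ^ i = (τ z : D) * u ^ i := by
      intro z
      show ((z : D) * u) ^ i = ((z : D) * u) ^ i * u⁻¹ ^ i * u ^ i
      rw [inv_pow, inv_mul_cancel_right]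
    calc ∏ z : Y, ρ (((z : D) * u) ^ i) v
        = ∏ z : Y, ρ ((τ z : D)) (ρ (u ^ i) v) := by
          apply Finset.prod_congr rfl
          intro z _
          rw [hτe z, map_mul]
          rfl
      _ = ∏ t : Y, ρ (t : D) (ρ (u ^ i) v) :=
          hτb.prod_comp (fun t : Y => ρ (t : D) (ρ (u ^ i) v))
      _ = 1 := hY _
  rw [Finset.prod_eq_single 0 hterm (fun h => absurd (Finset.mem_range.mpr hp.pos) h)] at h1
  simp only [pow_zero, map_one, MulAut.one_apply, Finset.prod_const, Finset.card_univ] at h1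
  rw [Nat.card_eq_fintype_card]
  exact h1

/-- The identity for a normal abelian subgroup. -/
theorem norm_identity {G : Type*} [Group G] [Finite G] (A : Subgroup G) [hA : A.Normal]
    (hcomm : ∀ a ∈ A, ∀ b ∈ A, a * b = b * a) {y u : G} {p q : ℕ} (hp : p.Prime) (hq : q.Prime)
    (hy : orderOf y = q) (hu : u ^ p = 1) (hn : u * y * u⁻¹ ∈ Subgroup.zpowers y)
    (hc : ¬ Commute u y) (H1 : ∀ v ∈ A, y * v * y⁻¹ = v → v = 1)
    (H2 : ∀ v ∈ A, (v * u) ^ p = 1) : ∀ v ∈ A, v ^ q = 1 := by
  classical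
  letI instA : CommGroup A :=
    { (inferInstance : Group A) with
      mul_comm := fun a b => Subtype.ext (hcomm a a.2 b b.2) }
  let ρ : G →* MulAut A := MulAut.conjNormal
  have hρ : ∀ (g : G) (a : A), ((ρ g a : A) : G) = g * a * g⁻¹ := fun g a => rfl
  let Y : Subgroup G := Subgroup.zpowers y
  have hcardY : Nat.card Y = q := by
    show Nat.card (Subgroup.zpowers y) = q
    rw [Nat.card_zpowers, hy]
  haveI hqf : Fact q.Prime := ⟨hq⟩
  have hnorm : ∀ z ∈ Y, u * z * u⁻¹ ∈ Y := by
    intro z hz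
    obtain ⟨i, rfl⟩ := Subgroup.mem_zpowers_iff.mp hz
    rw [← conj_zpow]
    exact Subgroup.zpow_mem _ hn i
  -- every element of `Y u` is conjugate to `u` under `Y`
  have hconj : ∀ z ∈ Y, ∃ t ∈ Y, z * u = t * u * t⁻¹ := by
    let σ : Y → Y := fun t => ⟨(t : G) * (u * (t : G)⁻¹ * u⁻¹), Y.mul_mem t.2 (hnorm _ (Y.inv_mem t.2))⟩
    have hσ : Function.Injective σ := by
      intro a b hab
      have h1 : (a : G) * (u * (a : G)⁻¹ * u⁻¹) = (b : G) * (u * (b : G)⁻¹ * u⁻¹) :=
        congrArg Subtype.val hab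
      set w : G := (b : G)⁻¹ * a with hw
      have hwY : w ∈ Y := Y.mul_mem (Y.inv_mem b.2) a.2
      have hwc : w * u = u * w := by
        have h2 : (b : G)⁻¹ * ((a : G) * (u * (a : G)⁻¹ * u⁻¹)) * (u * (b : G)) * u⁻¹ * u =
            (b : G)⁻¹ * ((b : G) * (u * (b : G)⁻¹ * u⁻¹)) * (u * (b : G)) * u⁻¹ * u := by rw [h1]
        have h3 : (b : G)⁻¹ * ((b : G) * (u * (b : G)⁻¹ * u⁻¹)) * (u * (b : G)) * u⁻¹ * u = u := by
          group
        have h4 : (b : G)⁻¹ * ((a : G) * (u * (a : G)⁻¹ * u⁻¹)) * (u * (b : G)) * u⁻¹ * u =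
            w * u * w⁻¹ := by
          rw [hw]
          group
        rw [h3, h4] at h2
        exact mul_inv_eq_iff_eq_mul.mp h2
      by_cases hw1 : w = 1
      · have : (a : G) = b := by
          have h5 : (b : G) * w = a := by rw [hw]; group
          rw [← h5, hw1, mul_one]
        exact Subtype.ext this
      · exfalso
        have hY1 : y ∈ Subgroup.zpowers w := by
          have hle : Subgroup.zpowers w ≤ Y := Subgroup.zpowers_le.mpr hwY
          have hcard : Nat.card (Subgroup.zpowers w) = q := by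
            have h6 : Nat.card (Subgroup.zpowers w) ∣ q := by
              rw [← hcardY]
              exact Subgroup.card_dvd_of_le hle
            rcases (Nat.dvd_prime hq).mp h6 with h7 | h7
            · exfalso
              apply hw1
              have := (Subgroup.eq_bot_iff_card _).mpr h7
              exact Subgroup.zpowers_eq_bot.mp this
            · exact h7
          have heq : Subgroup.zpowers w = Y :=
            Subgroup.eq_of_le_of_card_ge hle (by rw [hcard, hcardY])
          rw [heq]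
          exact Subgroup.mem_zpowers y
        obtain ⟨i, hi⟩ := Subgroup.mem_zpowers_iff.mp hY1
        apply hc
        rw [← hi]
        have hwc' : Commute u w := hwc.symm
        exact hwc'.zpow_right i
    have hσb : Function.Surjective σ := Finite.surjective_of_injective hσ
    intro z hz
    obtain ⟨t, ht⟩ := hσb ⟨z, hz⟩
    refine ⟨t, t.2, ?_⟩
    have h1 : (t : G) * (u * (t : G)⁻¹ * u⁻¹) = z := congrArg Subtype.val ht
    rw [← h1]
    group
  have hzu : ∀ z ∈ Y, (z * u) ^ p = 1 := by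
    intro z hz
    obtain ⟨t, -, ht⟩ := hconj z hz
    rw [ht, conj_pow, hu, mul_one, mul_inv_cancel]
  -- the norm of `u`
  have hprod : ∀ (n : ℕ) (w : A), ((∏ i ∈ Finset.range n, ρ (u ^ i) w : A) : G) * u ^ n = ((w : G) * u) ^ n := by
    intro n w
    induction n with
    | zero => simp
    | succ n ih =>
      rw [Finset.prod_range_succ, pow_succ ((w : G) * u), ← ih]
      have e1 : ((∏ i ∈ Finset.range n, ρ (u ^ i) w) * ρ (u ^ n) w : A) =
          (∏ i ∈ Finset.range n, ρ (u ^ i) w) * ρ (u ^ n) w := rfl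
      have e2 : (((∏ i ∈ Finset.range n, ρ (u ^ i) w) * ρ (u ^ n) w : A) : G) =
          ((∏ i ∈ Finset.range n, ρ (u ^ i) w : A) : G) * ((ρ (u ^ n) w : A) : G) := rfl
      rw [e2, hρ, pow_succ u]
      group
  have hNm : ∀ w : A, ∏ i ∈ Finset.range p, ρ (u ^ i) w = 1 := by
    intro w
    have h1 := hprod p w
    rw [hu, mul_one, H2 _ w.2] at h1
    exact Subtype.ext h1
  have hNu : ∀ z ∈ Y, ∀ v : A, ∏ i ∈ Finset.range p, ρ ((z * u) ^ i) v = 1 := by
    intro z hz v
    obtain ⟨t, -, ht⟩ := hconj z hz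
    have h1 : ∀ i, ρ ((z * u) ^ i) v = ρ t (ρ (u ^ i) (ρ t⁻¹ v)) := by
      intro i
      rw [ht, conj_pow]
      simp only [map_mul, MulAut.mul_apply]
    simp_rw [h1]
    rw [← map_prod (ρ t), hNm, map_one]
  have hY : ∀ v : A, ∀ [Fintype Y], ∏ t : Y, ρ (t : G) v = 1 := by
    intro v _
    set P : A := ∏ t : Y, ρ (t : G) v with hP
    have h1 : ρ y P = P := by
      rw [hP, map_prod]
      have hm : Function.Bijective (fun t : Y => (⟨y, Subgroup.mem_zpowers y⟩ : Y) * t) :=
        Group.mulLeft_bijective _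
      rw [← hm.prod_comp (fun t : Y => ρ (t : G) v)]
      apply Finset.prod_congr rfl
      intro t _
      show ρ y (ρ (t : G) v) = ρ (y * (t : G)) v
      rw [map_mul]
      rfl
    have h2 : y * (P : G) * y⁻¹ = P := congrArg Subtype.val h1
    exact Subtype.ext (H1 _ P.2 h2)
  intro v hv
  haveI : Finite Y := inferInstance
  have h1 := norm_abstract ρ Y u hp hnorm hzu hNu hY ⟨v, hv⟩
  rw [hcardY] at h1
  exact congrArg Subtype.val h1

end NormId
end Cfsg.Agent.Lib.PGroups
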