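import Cfsg.Agent.Lib.Transfer.Rank
import Cfsg.Agent.Lib.Basic.Frattini
import Cfsg.Agent.Lib.Coprime.Comm

/-!
# Normal elementary abelian subgroups of order `p^4`

For odd `p`, a finite `p`-group with an elementary abelian subgroup of order `p^4` has a normal one.
The argument: take `B` maximal normal elementary abelian; if `B` has order `p^3` then every elementary
abelian subgroup of order `p^4` meets `B` in the same normal subgroup `U` of order `p^2`. If `A` is normal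
in a maximal subgroup, then the conjugates of `A` together with `B` generate a normal subgroup `K` of
exponent `p` with `K' ≤ U ≤ Z(K)`. Either `K = AB` (then `A` is normal) or `K` has order at least `p^6`,
and a normal chain over `U` inside `K` gives the result.
-/

set_option autoImplicit false

namespace Cfsg.Agent.Lib.RankFour

open Subgroup
open Cfsg.Agent.Lib.Transfer

universe u

section Aux

variable {G : Type u} [Group G] [Finite G] {p : ℕ} [hpp : Fact p.Prime]

/-- Adding an element outside a subgroup of index `p` in `N` generates `N`. -/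
theorem le_sup_zpowers (D N : Subgroup G) (hDN : D ≤ N) (hc : Nat.card N = p * Nat.card D) {v : G}
    (hv : v ∈ N) (hvD : v ∉ D) : N ≤ D ⊔ zpowers v := by
  have hp : p.Prime := Fact.out
  have hXN : D ⊔ zpowers v ≤ N := sup_le hDN (by rwa [zpowers_le])
  have hDX : D ≤ D ⊔ zpowers v := le_sup_left
  have h1 : Nat.card D ∣ Nat.card ↥(D ⊔ zpowers v) := Subgroup.card_dvd_of_le hDX
  have h2 : Nat.card ↥(D ⊔ zpowers v) ∣ Nat.card N := Subgroup.card_dvd_of_le hXN
  obtain ⟨k, hk⟩ := h1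
  obtain ⟨l, hl⟩ := h2
  have hDpos : 0 < Nat.card D := Nat.card_pos
  have hkl : k * l = p := by
    have h3 : Nat.card D * p = Nat.card D * (k * l) := by
      rw [hk] at hl
      rw [mul_comm, ← hc, hl, mul_assoc]
    exact (Nat.eq_of_mul_eq_mul_left hDpos h3).symm
  have hk' : k = 1 ∨ k = p := (Nat.dvd_prime hp).1 ⟨l, hkl.symm⟩
  rcases hk' with rfl | rfl
  · exfalso
    have h4 : D = D ⊔ zpowers v := Subgroup.eq_of_le_of_card_ge hDX (by rw [hk, mul_one])
    apply hvD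
    rw [h4]
    exact mem_sup_right (mem_zpowers v)
  · have h4 : D ⊔ zpowers v = N := Subgroup.eq_of_le_of_card_ge hXN (by rw [hc, hk, mul_comm])
    exact h4.ge

/-- The index of a centralizer of an element is bounded by the size of a set of commutators. -/
theorem card_le_inf_centralizer (A D : Subgroup G) (y : G) (hA : ∀ a ∈ A, a * y * a⁻¹ * y⁻¹ ∈ D) :
    Nat.card A ≤ Nat.card ↥(A ⊓ centralizer ({y} : Set G)) * Nat.card D := by
  have h1 : ((centralizer ({y} : Set G)).subgroupOf A).index ≤ Nat.card D := by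
    apply index_le_card_of_fibers (H := A) (X := D) _
      (fun a => (⟨a.1 * y * a.1⁻¹ * y⁻¹, hA a.1 a.2⟩ : D))
    intro h h' hh
    rw [mem_subgroupOf, mem_centralizer_singleton_iff]
    have h2 : h.1 * y * h.1⁻¹ * y⁻¹ = h'.1 * y * h'.1⁻¹ * y⁻¹ := congrArg Subtype.val hh
    have h3 : h.1 * y * h.1⁻¹ = h'.1 * y * h'.1⁻¹ := mul_right_cancel h2
    show h.1⁻¹ * h'.1 * y = y * (h.1⁻¹ * h'.1)
    calc h.1⁻¹ * h'.1 * y = h.1⁻¹ * (h'.1 * y * h'.1⁻¹) * h'.1 := by group
      _ = h.1⁻¹ * (h.1 * y * h.1⁻¹) * h'.1 := by rw [h3]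
      _ = y * (h.1⁻¹ * h'.1) := by group
  have h2 : Nat.card ↥(A ⊓ centralizer ({y} : Set G)) * (A ⊓ centralizer ({y} : Set G)).relIndex A
      = Nat.card A := Cfsg.Agent.Lib.OddLocal.card_mul_relIndex inf_le_left
  rw [inf_relIndex_left] at h2
  rw [← h2]
  exact Nat.mul_le_mul_left _ h1

/-- Commuting with a subgroup and an element passes to the join. -/
theorem comm_of_sup {a v : G} {D N : Subgroup G} (hN : N ≤ D ⊔ zpowers v) (hD : ∀ d ∈ D, a * d = d * a)
    (hv : a * v = v * a) {n : G} (hn : n ∈ N) : a * n = n * a := by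
  have h : D ⊔ zpowers v ≤ centralizer ({a} : Set G) := by
    apply sup_le
    · intro d hd
      rw [mem_centralizer_singleton_iff]
      exact (hD d hd).symm
    · rw [zpowers_le, mem_centralizer_singleton_iff]
      exact hv.symm
  have h2 := h (hN hn)
  rw [mem_centralizer_singleton_iff] at h2
  exact h2.symm

/-- Extending a normal abelian subgroup inside a normal subgroup of exponent `p` centralizing it. -/
theorem extend_normal (hG : IsPGroup p G) (D N : Subgroup G) [hD : D.Normal] [hN : N.Normal]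
    (hDc : IsMulCommutative D) (hDN : D ≤ N) (hNC : N ≤ centralizer (D : Set G))
    (hNe : ∀ n ∈ N, n ^ p = 1) (hne : D ≠ N) :
    ∃ z ∈ N, z ∉ D ∧ (D ⊔ zpowers z).Normal ∧ IsMulCommutative ↥(D ⊔ zpowers z : Subgroup G) ∧
      Nat.card ↥(D ⊔ zpowers z : Subgroup G) = p * Nat.card D := by
  have hp : p.Prime := Fact.out
  obtain ⟨x, hx, hxD, -, hxc⟩ := exists_central_mod hG hDN hne
  refine ⟨x, hx, hxD, normal_sup_zpowers hxc, isMulCommutative_sup_zpowers hDc (hNC hx), ?_⟩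
  have hxp : x ^ p = 1 := hNe x hx
  have hx1 : x ≠ 1 := fun h => hxD (h ▸ one_mem D)
  have hord : orderOf x = p := orderOf_eq_prime hxp hx1
  have hzc : Nat.card (zpowers x) = p := by rw [Nat.card_zpowers, hord]
  have hinf : D ⊓ zpowers x = ⊥ := by
    have h1 : Nat.card ↥(D ⊓ zpowers x) ∣ Nat.card (zpowers x) := Subgroup.card_dvd_of_le inf_le_right
    rw [hzc] at h1
    rcases (Nat.dvd_prime hp).1 h1 with h2 | h2
    · exact Subgroup.eq_bot_of_card_eq _ h2
    · exfalso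
      have h3 : D ⊓ zpowers x = zpowers x :=
        Subgroup.eq_of_le_of_card_ge inf_le_right (by rw [hzc, h2])
      apply hxD
      have h4 : x ∈ D ⊓ zpowers x := by rw [h3]; exact mem_zpowers x
      exact h4.1
  have h1 : D.relIndex (D ⊔ zpowers x) = p := by
    rw [relIndex_sup_left, ← inf_relIndex_right, hinf, relIndex_bot_left, hzc]
  have h2 := Cfsg.Agent.Lib.OddLocal.card_mul_relIndex (le_sup_left : D ≤ D ⊔ zpowers x)
  rw [h1] at h2
  rw [← h2, mul_comm]

/-- An index-`p` step of normal subgroups is central modulo the smaller one. -/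
theorem comm_mem_of_card (hG : IsPGroup p G) (D N : Subgroup G) [hD : D.Normal] [hN : N.Normal]
    (hDN : D ≤ N) (hc : Nat.card N = p * Nat.card D) {z : G} (hz : z ∈ N) (g : G) :
    g * z * g⁻¹ * z⁻¹ ∈ D := by
  have hp : p.Prime := Fact.out
  have hne : D ≠ N := by
    intro h
    rw [← h] at hc
    have hpos : 0 < Nat.card D := Nat.card_pos
    have h1 := hp.two_le
    nlinarith
  obtain ⟨x, hx, hxD, -, hxc⟩ := exists_central_mod hG hDN hne
  have hmem : ∀ w, w ∈ (center (G ⧸ D)).comap (QuotientGroup.mk' D) ↔ ∀ g : G, g * w * g⁻¹ * w⁻¹ ∈ D := by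
    intro w
    constructor
    · intro h g
      have h1 := (Subgroup.mem_center_iff.1 h) (g : G ⧸ D)
      apply (QuotientGroup.eq_one_iff _).1
      simp only [QuotientGroup.mk_mul, QuotientGroup.mk_inv]
      have h2 : (g : G ⧸ D) * (w : G ⧸ D) = (w : G ⧸ D) * (g : G ⧸ D) := h1
      rw [h2]
      group
    · intro h
      rw [mem_comap, Subgroup.mem_center_iff]
      intro q
      induction q using QuotientGroup.induction_on with
      | H g =>
        have h1 := (QuotientGroup.eq_one_iff _).2 (h g)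
        simp only [QuotientGroup.mk_mul, QuotientGroup.mk_inv] at h1
        show (g : G ⧸ D) * (w : G ⧸ D) = (w : G ⧸ D) * (g : G ⧸ D)
        have h3 : (g : G ⧸ D) * (w : G ⧸ D) =
            ((g : G ⧸ D) * w * (g : G ⧸ D)⁻¹ * (w : G ⧸ D)⁻¹) * ((w : G ⧸ D) * g) := by group
        rw [h3, h1, one_mul]
  have hNY : N ≤ (center (G ⧸ D)).comap (QuotientGroup.mk' D) := by
    refine (le_sup_zpowers D N hDN hc hx hxD).trans (sup_le ?_ ?_)
    · intro d hd
      rw [hmem]
      intro g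
      exact mul_mem (hD.conj_mem d hd g) (inv_mem hd)
    · rw [zpowers_le, hmem]
      exact hxc
  exact (hmem z).1 (hNY hz) g

/-- The configuration attached to a maximal normal elementary abelian subgroup of order `p^3`. -/
structure Setup (p : ℕ) (B U Z : Subgroup G) : Prop where
  hZU : Z ≤ U
  hUB : U ≤ B
  cZ : Nat.card Z = p
  cU : Nat.card U = p ^ 2
  cB : Nat.card B = p ^ 3
  bc : ∀ a ∈ B, ∀ b ∈ B, a * b = b * a
  hΩ : ∀ x ∈ centralizer (B : Set G), x ^ p = 1 → x ∈ B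
  f1 : ∀ z ∈ Z, ∀ g : G, g * z = z * g
  f2 : ∀ y ∈ U, ∀ g : G, g * y * g⁻¹ * y⁻¹ ∈ Z
  f3 : ∀ x ∈ B, ∀ g : G, g * x * g⁻¹ * x⁻¹ ∈ U

/-- Every elementary abelian subgroup of order `p^4` contains `U` and meets `B` in `U`. -/
theorem analysis {B U Z : Subgroup G} (S : Setup p B U Z) {A : Subgroup G}
    (hAc : ∀ a ∈ A, ∀ b ∈ A, a * b = b * a) (hAe : ∀ a ∈ A, a ^ p = 1) (hAcard : Nat.card A = p ^ 4) :
    U ≤ A ∧ ∀ a ∈ A, a ∈ B → a ∈ U := by
  have hp : p.Prime := Fact.out
  have hp0 : 0 < p := hp.pos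
  have hp1 : 1 < p := hp.one_lt
  obtain ⟨y, hyU, hyZ⟩ : ∃ y ∈ U, y ∉ Z := by
    by_contra h
    push_neg at h
    have h1 : Nat.card U ≤ Nat.card Z := Subgroup.card_le_of_le h
    rw [S.cU, S.cZ] at h1
    nlinarith
  obtain ⟨x, hxB, hxU⟩ : ∃ x ∈ B, x ∉ U := by
    by_contra h
    push_neg at h
    have h1 : Nat.card B ≤ Nat.card U := Subgroup.card_le_of_le h
    rw [S.cB, S.cU] at h1
    have h2 := (Nat.pow_le_pow_iff_right hp1).1 h1
    omega
  have hUgen : U ≤ Z ⊔ zpowers y :=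
    le_sup_zpowers Z U S.hZU (by rw [S.cU, S.cZ]; ring) hyU hyZ
  have hBgen : B ≤ U ⊔ zpowers x :=
    le_sup_zpowers U B S.hUB (by rw [S.cB, S.cU]; ring) hxB hxU
  -- the part of `A` centralizing `B`
  have hcentB : ∀ a, a ∈ A → a * y = y * a → a * x = x * a → a ∈ A ⊓ B := by
    intro a ha hay hax
    have haU : ∀ v ∈ U, a * v = v * a := fun v hv =>
      comm_of_sup hUgen (fun d hd => S.f1 d hd a) hay hv
    have haB : ∀ v ∈ B, a * v = v * a := fun v hv => comm_of_sup hBgen haU hax hv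
    refine ⟨ha, S.hΩ a ?_ (hAe a ha)⟩
    rw [mem_centralizer_iff]
    intro v hv
    exact (haB v hv).symm
  have hbound : p ^ 4 ≤ Nat.card ↥(A ⊓ B) * p ^ 2 := by
    by_cases hcase : ∀ a ∈ A, a * y = y * a
    · have h1 := card_le_inf_centralizer A U x (fun a _ => S.f3 x hxB a)
      have h2 : A ⊓ centralizer ({x} : Set G) ≤ A ⊓ B := by
        rintro a ⟨ha, hax⟩
        replace hax : a * x = x * a := mem_centralizer_singleton_iff.1 hax
        exact hcentB a ha (hcase a ha) hax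
      have h3 := Subgroup.card_le_of_le h2
      rw [hAcard, S.cU] at h1
      exact h1.trans (Nat.mul_le_mul_right _ h3)
    · push_neg at hcase
      obtain ⟨a₀, ha₀, ha₀y⟩ := hcase
      have h1 := card_le_inf_centralizer A Z y (fun a _ => S.f2 y hyU a)
      have hclaim : ∀ b ∈ A ⊓ centralizer ({y} : Set G), b * x * b⁻¹ * x⁻¹ ∈ Z := by
        rintro b ⟨hbA, hby⟩
        replace hby : b * y = y * b := mem_centralizer_singleton_iff.1 hby
        obtain ⟨u, hudef⟩ : ∃ u, u = b * x * b⁻¹ * x⁻¹ := ⟨_, rfl⟩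
        have hu : u ∈ U := hudef ▸ S.f3 x hxB b
        rw [← hudef]
        by_contra huZ
        have hUgen2 : U ≤ Z ⊔ zpowers u :=
          le_sup_zpowers Z U S.hZU (by rw [S.cU, S.cZ]; ring) hu huZ
        apply ha₀y
        refine comm_of_sup hUgen2 (fun d hd => S.f1 d hd a₀) ?_ hyU
        obtain ⟨w, hwdef⟩ : ∃ w, w = a₀ * x * a₀⁻¹ * x⁻¹ := ⟨_, rfl⟩
        have hw : w ∈ U := hwdef ▸ S.f3 x hxB a₀
        have hbU : ∀ v ∈ U, b * v = v * b := fun v hv =>
          comm_of_sup hUgen (fun d hd => S.f1 d hd b) hby hv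
        have hab : a₀ * b = b * a₀ := hAc a₀ ha₀ b hbA
        have e1 : b * x * b⁻¹ = u * x := by rw [hudef]; group
        have e2 : a₀ * x * a₀⁻¹ = w * x := by rw [hwdef]; group
        have e3 : a₀ * (b * x * b⁻¹) * a₀⁻¹ = b * (a₀ * x * a₀⁻¹) * b⁻¹ := by
          calc a₀ * (b * x * b⁻¹) * a₀⁻¹ = (a₀ * b) * x * (a₀ * b)⁻¹ := by group
            _ = (b * a₀) * x * (b * a₀)⁻¹ := by rw [hab]
            _ = b * (a₀ * x * a₀⁻¹) * b⁻¹ := by group
        have e4 : a₀ * (u * x) * a₀⁻¹ = (a₀ * u * a₀⁻¹) * (a₀ * x * a₀⁻¹) := by group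
        have e5 : b * (w * x) * b⁻¹ = (b * w) * x * b⁻¹ := by group
        have e6 : (w * b) * x * b⁻¹ = w * (b * x * b⁻¹) := by group
        rw [e1, e2, e4, e2, e5, hbU w hw, e6, e1] at e3
        have hu' : a₀ * u * a₀⁻¹ ∈ U := by
          have h5 := S.hZU (S.f2 u hu a₀)
          have h6 : a₀ * u * a₀⁻¹ = (a₀ * u * a₀⁻¹ * u⁻¹) * u := by group
          rw [h6]
          exact mul_mem h5 hu
        have e7 : (a₀ * u * a₀⁻¹) * w = w * (a₀ * u * a₀⁻¹) :=
          S.bc _ (S.hUB hu') _ (S.hUB hw)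
        have e8 : w * (a₀ * u * a₀⁻¹) = w * u := by
          rw [← e7]
          apply mul_right_cancel (b := x)
          simpa only [mul_assoc] using e3
        have e9 : a₀ * u * a₀⁻¹ = u := mul_left_cancel e8
        exact mul_inv_eq_iff_eq_mul.1 e9
      have h2 := card_le_inf_centralizer _ Z x hclaim
      have h3 : (A ⊓ centralizer ({y} : Set G)) ⊓ centralizer ({x} : Set G) ≤ A ⊓ B := by
        rintro a ⟨⟨ha, hay⟩, hax⟩
        replace hay : a * y = y * a := mem_centralizer_singleton_iff.1 hay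
        replace hax : a * x = x * a := mem_centralizer_singleton_iff.1 hax
        exact hcentB a ha hay hax
      have h4 := Subgroup.card_le_of_le h3
      rw [hAcard, S.cZ] at h1
      rw [S.cZ] at h2
      calc p ^ 4 ≤ Nat.card ↥(A ⊓ centralizer ({y} : Set G)) * p := h1
        _ ≤ (Nat.card ↥(A ⊓ B) * p) * p :=
            Nat.mul_le_mul_right _ (h2.trans (Nat.mul_le_mul_right _ h4))
        _ = Nat.card ↥(A ⊓ B) * p ^ 2 := by ring
  have hge : p ^ 2 ≤ Nat.card ↥(A ⊓ B) := by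
    have h1 : p ^ 2 * p ^ 2 ≤ Nat.card ↥(A ⊓ B) * p ^ 2 := by
      calc p ^ 2 * p ^ 2 = p ^ 4 := by ring
        _ ≤ _ := hbound
    exact Nat.le_of_mul_le_mul_right h1 (by positivity)
  -- the order of `A ⊓ B`
  have hdvd : Nat.card ↥(A ⊓ B) ∣ p ^ 3 := S.cB ▸ Subgroup.card_dvd_of_le inf_le_right
  obtain ⟨k, hk3, hk⟩ := (Nat.dvd_prime_pow hp).1 hdvd
  have hk2 : 2 ≤ k := by
    rw [hk] at hge
    exact (Nat.pow_le_pow_iff_right hp1).1 hge
  have hkne : k ≠ 3 := by
    rintro rfl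
    have h1 : A ⊓ B = B := Subgroup.eq_of_le_of_card_ge inf_le_right (by rw [S.cB, hk])
    have hBA : B ≤ A := h1 ▸ inf_le_left
    have hAB : A ≤ B := by
      intro a ha
      apply S.hΩ a _ (hAe a ha)
      rw [mem_centralizer_iff]
      intro v hv
      exact hAc v (hBA hv) a ha
    have h2 := Subgroup.card_le_of_le hAB
    rw [hAcard, S.cB] at h2
    have h3 := (Nat.pow_le_pow_iff_right hp1).1 h2
    omega
  have hk2' : k = 2 := by omega
  subst hk2'
  -- `U ≤ A ⊓ B`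
  have hUV : U ≤ A ⊓ B := by
    by_contra hcon
    obtain ⟨y', hy'U, hy'V⟩ : ∃ y' ∈ U, y' ∉ A ⊓ B := by
      by_contra h
      push_neg at h
      exact hcon h
    have hBgen2 : B ≤ (A ⊓ B) ⊔ zpowers y' :=
      le_sup_zpowers _ B inf_le_right (by rw [S.cB, hk]; ring) (S.hUB hy'U) hy'V
    have h1 := card_le_inf_centralizer A Z y' (fun a _ => S.f2 y' hy'U a)
    have h2 : A ⊓ centralizer ({y'} : Set G) ≤ A ⊓ B := by
      rintro a ⟨ha, hay⟩
      replace hay : a * y' = y' * a := mem_centralizer_singleton_iff.1 hay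
      have haB : ∀ v ∈ B, a * v = v * a := fun v hv =>
        comm_of_sup hBgen2 (fun d hd => hAc a ha d hd.1) hay hv
      refine ⟨ha, S.hΩ a ?_ (hAe a ha)⟩
      rw [mem_centralizer_iff]
      intro v hv
      exact (haB v hv).symm
    have h3 := Subgroup.card_le_of_le h2
    rw [hk] at h3
    rw [hAcard, S.cZ] at h1
    have h4 : p ^ 4 ≤ p ^ 3 := by
      calc p ^ 4 ≤ Nat.card ↥(A ⊓ centralizer ({y'} : Set G)) * p := h1
        _ ≤ p ^ 2 * p := Nat.mul_le_mul_right _ h3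
        _ = p ^ 3 := by ring
    have h5 := (Nat.pow_le_pow_iff_right hp1).1 h4
    omega
  have hUeq : U = A ⊓ B := Subgroup.eq_of_le_of_card_ge hUV (by rw [hk, S.cU])
  refine ⟨hUV.trans inf_le_left, fun a ha haB => ?_⟩
  rw [hUeq]
  exact ⟨ha, haB⟩

end Aux

section Core

variable {G : Type u} [Group G] [Finite G] {p : ℕ} [hpp : Fact p.Prime]

/-- The commutator of two elements normalizing each other's classes modulo `U` centralizes `x`. -/
theorem comm_x_aux {U : Subgroup G} (hUc : ∀ a ∈ U, ∀ b ∈ U, a * b = b * a) {a c x : G}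
    (haU : ∀ v ∈ U, a * v = v * a) (hcU : ∀ v ∈ U, c * v = v * c)
    (hax : a * x * a⁻¹ * x⁻¹ ∈ U) (hcx : c * x * c⁻¹ * x⁻¹ ∈ U) :
    ((c * a)⁻¹ * (a * c)) * x = x * ((c * a)⁻¹ * (a * c)) := by
  obtain ⟨u₁, hu₁⟩ : ∃ u₁, u₁ = a * x * a⁻¹ * x⁻¹ := ⟨_, rfl⟩
  obtain ⟨u₂, hu₂⟩ : ∃ u₂, u₂ = c * x * c⁻¹ * x⁻¹ := ⟨_, rfl⟩
  rw [← hu₁] at hax
  rw [← hu₂] at hcx
  have e1 : a * x * a⁻¹ = u₁ * x := by rw [hu₁]; group
  have e2 : c * x * c⁻¹ = u₂ * x := by rw [hu₂]; group
  have e3 : (a * c) * x * (a * c)⁻¹ = u₂ * u₁ * x := by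
    calc (a * c) * x * (a * c)⁻¹ = a * (c * x * c⁻¹) * a⁻¹ := by group
      _ = a * (u₂ * x) * a⁻¹ := by rw [e2]
      _ = (a * u₂) * x * a⁻¹ := by group
      _ = (u₂ * a) * x * a⁻¹ := by rw [haU u₂ hcx]
      _ = u₂ * (a * x * a⁻¹) := by group
      _ = u₂ * u₁ * x := by rw [e1]; group
  have e4 : (c * a) * x * (c * a)⁻¹ = u₁ * u₂ * x := by
    calc (c * a) * x * (c * a)⁻¹ = c * (a * x * a⁻¹) * c⁻¹ := by group
      _ = c * (u₁ * x) * c⁻¹ := by rw [e1]
      _ = (c * u₁) * x * c⁻¹ := by group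
      _ = (u₁ * c) * x * c⁻¹ := by rw [hcU u₁ hax]
      _ = u₁ * (c * x * c⁻¹) := by group
      _ = u₁ * u₂ * x := by rw [e2]; group
  have e5 : (a * c) * x * (a * c)⁻¹ = (c * a) * x * (c * a)⁻¹ := by
    rw [e3, e4, hUc u₂ hcx u₁ hax]
  calc ((c * a)⁻¹ * (a * c)) * x = (c * a)⁻¹ * ((a * c) * x * (a * c)⁻¹) * (a * c) := by group
    _ = (c * a)⁻¹ * ((c * a) * x * (c * a)⁻¹) * (a * c) := by rw [e5]
    _ = x * ((c * a)⁻¹ * (a * c)) := by group

/-- The core of the argument. -/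
theorem core (hp2 : p ≠ 2) (hG : IsPGroup p G) (M : Subgroup G) [hMn : M.Normal] (A : Subgroup G)
    (hAM : A ≤ M) (hAnorm : ∀ m ∈ M, ∀ a ∈ A, m * a * m⁻¹ ∈ A)
    (hAc : ∀ a ∈ A, ∀ b ∈ A, a * b = b * a) (hAe : ∀ a ∈ A, a ^ p = 1) (hAcard : Nat.card A = p ^ 4) :
    ∃ A' : Subgroup G, A'.Normal ∧ Cfsg.IsElementaryAbelian p A' ∧ Nat.card A' = p ^ 4 := by
  classical
  have hp : p.Prime := Fact.out
  have hp1 : 1 < p := hp.one_lt
  by_contra hno
  obtain ⟨B, hBn, hBc, hBe, hBmax⟩ := exists_maximal_elementary p G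
  haveI := hBn
  have hΩ : ∀ x ∈ centralizer (B : Set G), x ^ p = 1 → x ∈ B := fun x hx hxp =>
    mem_of_maximal_elementary hp2 hG B hBc hBe hBmax x hx hxp
  have hbc : ∀ a ∈ B, ∀ b ∈ B, a * b = b * a := by
    intro a ha b hb
    have := hBc.is_comm.comm (⟨a, ha⟩ : B) ⟨b, hb⟩
    exact congrArg (Subtype.val : ↥B → G) this
  obtain ⟨b, hb⟩ := (IsPGroup.iff_card.1 (hG.to_subgroup B))
  -- the order of `B`
  have hb3 : b = 3 := by
    by_contra hne
    rcases Nat.lt_or_ge b 3 with hlt | hge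
    · have h1 := index_centralizer_le hG b B hb
      have h2 : A ⊓ centralizer (B : Set G) ≤ B := fun x hx => hΩ x hx.2 (hAe x hx.1)
      have h3 := Subgroup.card_le_of_le h2
      have h4 := Cfsg.Agent.Lib.OddLocal.card_mul_relIndex
        (inf_le_left : A ⊓ centralizer (B : Set G) ≤ A)
      rw [inf_relIndex_left] at h4
      have h5 : (centralizer (B : Set G)).relIndex A ≤ (centralizer (B : Set G)).index :=
        Nat.le_of_dvd (Nat.pos_of_ne_zero Subgroup.index_ne_zero_of_finite)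
          (Subgroup.relIndex_dvd_index_of_normal _ _)
      have h6 : p ^ 4 ≤ p ^ b * p ^ (b * (b - 1) / 2) := by
        rw [← hAcard, ← h4, ← hb]
        exact Nat.mul_le_mul h3 (h5.trans h1)
      rw [← pow_add] at h6
      have h7 := (Nat.pow_le_pow_iff_right hp1).1 h6
      interval_cases b <;> omega
    · obtain ⟨D, hDn, hDB, hDc⟩ := exists_normal_le_of_card hG b B hb 4 (by omega)
      apply hno
      refine ⟨D, hDn, ⟨⟨⟨fun u v => ?_⟩⟩, fun x hx => hBe x (hDB hx)⟩, hDc⟩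
      apply Subtype.ext
      exact hbc u.1 (hDB u.2) v.1 (hDB v.2)
  subst hb3
  obtain ⟨U, hUn, hUB, hUc⟩ := exists_normal_le_of_card hG 3 B hb 2 (by omega)
  haveI := hUn
  obtain ⟨Z, hZn, hZU, hZc⟩ := exists_normal_le_of_card hG 2 U hUc 1 (by omega)
  haveI := hZn
  rw [pow_one] at hZc
  have hbot : Nat.card (⊥ : Subgroup G) = 1 := by simp
  have S : Setup p B U Z :=
    { hZU := hZU
      hUB := hUB
      cZ := hZc
      cU := hUc
      cB := hb
      bc := hbc
      hΩ := hΩ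
      f1 := by
        intro z hz g
        have h1 : g * z * g⁻¹ * z⁻¹ ∈ (⊥ : Subgroup G) :=
          comm_mem_of_card hG ⊥ Z bot_le (by rw [hbot, hZc, mul_one]) hz g
        rw [Subgroup.mem_bot] at h1
        have h2 : g * z * g⁻¹ = z := mul_inv_eq_one.1 h1
        exact mul_inv_eq_iff_eq_mul.1 h2
      f2 := fun y hy g => comm_mem_of_card hG Z U hZU (by rw [hUc, hZc]; ring) hy g
      f3 := fun x hx g => comm_mem_of_card hG U B hUB (by rw [hb, hUc]; ring) hx g }
  have hUcomm : ∀ a ∈ U, ∀ b ∈ U, a * b = b * a := fun a ha b hb => hbc a (hUB ha) b (hUB hb)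
  have hUe : ∀ u ∈ U, u ^ p = 1 := fun u hu => hBe u (hUB hu)
  -- good subgroups
  let Good : Subgroup G → Prop := fun A' =>
    (∀ a ∈ A', ∀ b ∈ A', a * b = b * a) ∧ (∀ a ∈ A', a ^ p = 1) ∧ Nat.card A' = p ^ 4 ∧ A' ≤ M ∧
      ∀ m ∈ M, ∀ a ∈ A', m * a * m⁻¹ ∈ A'
  have hgoodA : Good A := ⟨hAc, hAe, hAcard, hAM, hAnorm⟩
  let Ag : G → Subgroup G := fun g => A.map (MulAut.conj g).toMonoidHom
  have hAgmem : ∀ g x, x ∈ Ag g ↔ ∃ a ∈ A, g * a * g⁻¹ = x := by
    intro g x
    exact Subgroup.mem_map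
  have hgood : ∀ g, Good (Ag g) := by
    intro g
    refine ⟨?_, ?_, ?_, ?_, ?_⟩
    · intro x hx y hy
      obtain ⟨a, ha, rfl⟩ := (hAgmem g x).1 hx
      obtain ⟨b, hb', rfl⟩ := (hAgmem g y).1 hy
      have := hAc a ha b hb'
      calc g * a * g⁻¹ * (g * b * g⁻¹) = g * (a * b) * g⁻¹ := by group
        _ = g * (b * a) * g⁻¹ := by rw [this]
        _ = _ := by group
    · intro x hx
      obtain ⟨a, ha, rfl⟩ := (hAgmem g x).1 hx
      rw [conj_pow, hAe a ha]
      group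
    · have h1 : Nat.card ↥(Ag g) = Nat.card A :=
        Nat.card_congr (A.equivMapOfInjective _ (MulAut.conj g).injective).symm.toEquiv
      rw [h1, hAcard]
    · intro x hx
      obtain ⟨a, ha, rfl⟩ := (hAgmem g x).1 hx
      exact hMn.conj_mem a (hAM ha) g
    · intro m hm x hx
      obtain ⟨a, ha, rfl⟩ := (hAgmem g x).1 hx
      rw [hAgmem]
      have hm' : g⁻¹ * m * g ∈ M := by
        have := hMn.conj_mem m hm g⁻¹
        simpa using this
      refine ⟨(g⁻¹ * m * g) * a * (g⁻¹ * m * g)⁻¹, hAnorm _ hm' a ha, ?_⟩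
      group
  -- commutators of good subgroups lie in `U`
  obtain ⟨x₀, hx₀B, hx₀U⟩ : ∃ x ∈ B, x ∉ U := by
    by_contra h
    push_neg at h
    have h1 : Nat.card B ≤ Nat.card U := Subgroup.card_le_of_le h
    rw [hb, hUc] at h1
    have h2 := (Nat.pow_le_pow_iff_right hp1).1 h1
    omega
  have hBgen : B ≤ U ⊔ zpowers x₀ :=
    le_sup_zpowers U B hUB (by rw [hb, hUc]; ring) hx₀B hx₀U
  have hcomm : ∀ A₁ A₂, Good A₁ → Good A₂ → ∀ a ∈ A₁, ∀ c ∈ A₂, a * c * a⁻¹ * c⁻¹ ∈ U := by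
    intro A₁ A₂ h₁ h₂ a ha c hc
    obtain ⟨h₁c, h₁e, h₁card, h₁M, h₁n⟩ := h₁
    obtain ⟨h₂c, h₂e, h₂card, h₂M, h₂n⟩ := h₂
    obtain ⟨hUA₁, hA₁B⟩ := analysis S h₁c h₁e h₁card
    obtain ⟨hUA₂, -⟩ := analysis S h₂c h₂e h₂card
    have hq : a * c * a⁻¹ * c⁻¹ ∈ A₁ := by
      have e : a * c * a⁻¹ * c⁻¹ = a * (c * a⁻¹ * c⁻¹) := by group
      rw [e]
      exact mul_mem ha (h₁n c (h₂M hc) a⁻¹ (inv_mem ha))
    apply hA₁B _ hq
    apply hΩ _ _ (h₁e _ hq)
    -- centralizes `U`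
    have h3 : ∀ v ∈ U, (a * c * a⁻¹ * c⁻¹) * v = v * (a * c * a⁻¹ * c⁻¹) := by
      intro v hv
      have hav : a ∈ centralizer ({v} : Set G) :=
        mem_centralizer_singleton_iff.2 (h₁c a ha v (hUA₁ hv))
      have hcv : c ∈ centralizer ({v} : Set G) :=
        mem_centralizer_singleton_iff.2 (h₂c c hc v (hUA₂ hv))
      exact mem_centralizer_singleton_iff.1
        (mul_mem (mul_mem (mul_mem hav hcv) (inv_mem hav)) (inv_mem hcv))
    -- centralizes `x₀`
    have h4 : (a * c * a⁻¹ * c⁻¹) * x₀ = x₀ * (a * c * a⁻¹ * c⁻¹) := by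
      have h5 := comm_x_aux (a := a⁻¹) (c := c⁻¹) (x := x₀) hUcomm
        (fun v hv => h₁c _ (inv_mem ha) v (hUA₁ hv))
        (fun v hv => h₂c _ (inv_mem hc) v (hUA₂ hv))
        (S.f3 x₀ hx₀B a⁻¹) (S.f3 x₀ hx₀B c⁻¹)
      have e : (c⁻¹ * a⁻¹)⁻¹ * (a⁻¹ * c⁻¹) = a * c * a⁻¹ * c⁻¹ := by group
      rwa [e] at h5
    rw [mem_centralizer_iff]
    intro v hv
    exact (comm_of_sup hBgen h3 h4 hv).symm
  -- the subgroup `K`
  let T : Set G := Group.conjugatesOfSet ((A : Set G) ∪ (B : Set G))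
  let K : Subgroup G := Subgroup.closure T
  haveI hKn : K.Normal := Subgroup.normalClosure_normal (s := (A : Set G) ∪ (B : Set G))
  have hT : ∀ t ∈ T, (∃ g, t ∈ Ag g) ∨ t ∈ B := by
    intro t ht
    obtain ⟨a, ha, hat⟩ := Group.mem_conjugatesOfSet_iff.1 ht
    obtain ⟨g, rfl⟩ := isConj_iff.1 hat
    rcases ha with ha | ha
    · exact Or.inl ⟨g, (hAgmem g _).2 ⟨a, ha, rfl⟩⟩
    · exact Or.inr (hBn.conj_mem a ha g)
  have hTsub : (A : Set G) ∪ (B : Set G) ⊆ T := Group.subset_conjugatesOfSet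
  have hAK : A ≤ K := fun a ha => Subgroup.subset_closure (hTsub (Or.inl ha))
  have hBK : B ≤ K := fun a ha => Subgroup.subset_closure (hTsub (Or.inr ha))
  have hUK : U ≤ K := hUB.trans hBK
  -- commutators of generators
  have hgen : ∀ t ∈ T, ∀ t' ∈ T, t * t' * t⁻¹ * t'⁻¹ ∈ U := by
    intro t ht t' ht'
    rcases hT t ht with ⟨g, hg⟩ | htB <;> rcases hT t' ht' with ⟨g', hg'⟩ | ht'B
    · exact hcomm _ _ (hgood g) (hgood g') t hg t' hg'
    · -- `t' ∈ B`: the commutator is the inverse of a flag commutator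
      have h1 := S.f3 t' ht'B t
      have h2 : t * t' * t⁻¹ * t'⁻¹ ∈ U := h1
      exact h2
    · -- `t ∈ B`
      have h1 := S.f3 t htB t'
      have h2 := inv_mem h1
      have e : (t' * t * t'⁻¹ * t⁻¹)⁻¹ = t * t' * t⁻¹ * t'⁻¹ := by group
      rwa [e] at h2
    · rw [hbc t htB t' ht'B]
      have e : t' * t * t⁻¹ * t'⁻¹ = 1 := by group
      rw [e]
      exact one_mem U
  let π : G →* G ⧸ U := QuotientGroup.mk' U
  have hπ : ∀ z w, z * w * z⁻¹ * w⁻¹ ∈ U ↔ π z * π w = π w * π z := by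
    intro z w
    constructor
    · intro h
      have h1 : π (z * w * z⁻¹ * w⁻¹) = 1 := (QuotientGroup.eq_one_iff _).2 h
      simp only [map_mul, map_inv] at h1
      have h3 : π z * π w = (π z * π w * (π z)⁻¹ * (π w)⁻¹) * (π w * π z) := by group
      rw [h3, h1, one_mul]
    · intro h
      apply (QuotientGroup.eq_one_iff _).1
      show π (z * w * z⁻¹ * w⁻¹) = 1
      simp only [map_mul, map_inv]
      rw [h]
      group
  have hK1a : ∀ t' ∈ T, K ≤ (centralizer ({π t'} : Set (G ⧸ U))).comap π := by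
    intro t' ht'
    rw [Subgroup.closure_le]
    intro t ht
    show π t ∈ centralizer ({π t'} : Set (G ⧸ U))
    rw [mem_centralizer_singleton_iff]
    exact (hπ t t').1 (hgen t ht t' ht')
  have hK1b : ∀ z ∈ K, K ≤ (centralizer ({π z} : Set (G ⧸ U))).comap π := by
    intro z hz
    rw [Subgroup.closure_le]
    intro t' ht'
    show π t' ∈ centralizer ({π z} : Set (G ⧸ U))
    rw [mem_centralizer_singleton_iff]
    have h1 : π z ∈ centralizer ({π t'} : Set (G ⧸ U)) := hK1a t' ht' hz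
    rw [mem_centralizer_singleton_iff] at h1
    exact h1.symm
  have hK1 : ∀ z ∈ K, ∀ w ∈ K, z * w * z⁻¹ * w⁻¹ ∈ U := by
    intro z hz w hw
    have h1 : π w ∈ centralizer ({π z} : Set (G ⧸ U)) := hK1b z hz hw
    rw [mem_centralizer_singleton_iff] at h1
    exact (hπ z w).2 h1.symm
  have hK2 : K ≤ centralizer (U : Set G) := by
    rw [Subgroup.closure_le]
    intro t ht
    rw [SetLike.mem_coe, mem_centralizer_iff]
    intro v hv
    rcases hT t ht with ⟨g, hg⟩ | htB
    · obtain ⟨h₁, h₂, h₃, -, -⟩ := hgood g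
      exact h₁ v ((analysis S h₁ h₂ h₃).1 hv) t hg
    · exact hbc v (hUB hv) t htB
  have hK2' : ∀ z ∈ K, ∀ v ∈ U, z * v = v * z := fun z hz v hv =>
    (mem_centralizer_iff.1 (hK2 hz) v hv).symm
  have hK3 : ∀ z ∈ K, z ^ p = 1 := by
    intro z hz
    induction hz using Subgroup.closure_induction with
    | mem t ht =>
      rcases hT t ht with ⟨g, hg⟩ | htB
      · exact (hgood g).2.1 t hg
      · exact hBe t htB
    | one => simp
    | mul y w hy hw ihy ihw =>
      have hcm : w * y * w⁻¹ * y⁻¹ ∈ U := hK1 w hw y hy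
      obtain ⟨c, hc⟩ : ∃ c, c = w * y * w⁻¹ * y⁻¹ := ⟨_, rfl⟩
      rw [← hc] at hcm
      have h1 : w * y = c * y * w := by rw [hc]; group
      have h2 := Cfsg.Agent.Lib.Coprime.mul_pow_of_commutator_central y w c h1
        (hK2' y hy c hcm).symm (hK2' w hw c hcm).symm p
      rw [h2, ihy, ihw]
      have h3 : 2 < p := by
        have := hp.two_le
        omega
      obtain ⟨m, hm⟩ := Nat.Prime.dvd_choose_self hp (by omega : (2 : ℕ) ≠ 0) h3
      rw [hm, pow_mul, hUe c hcm]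
      simp
    | inv y hy ih =>
      rw [inv_pow, ih, inv_one]
  -- the join of `A` and `B`
  obtain ⟨hUA, hAB⟩ := analysis S hAc hAe hAcard
  have hinfU : B ⊓ A = U := by
    apply le_antisymm
    · intro y hy
      exact hAB y hy.2 hy.1
    · exact le_inf hUB hUA
  have hrelA : B.relIndex A = p ^ 2 := by
    have h1 := Cfsg.Agent.Lib.OddLocal.card_mul_relIndex (inf_le_right : B ⊓ A ≤ A)
    rw [inf_relIndex_right, hinfU, hUc, hAcard] at h1
    have h2 : p ^ 2 * B.relIndex A = p ^ 2 * p ^ 2 := by rw [h1]; ring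
    exact Nat.eq_of_mul_eq_mul_left (by positivity) h2
  have hJcard : Nat.card ↥(A ⊔ B) = p ^ 5 := by
    have h1 := Cfsg.Agent.Lib.OddLocal.card_mul_relIndex (le_sup_right : B ≤ A ⊔ B)
    rw [relIndex_sup_right, hrelA, hb] at h1
    rw [← h1]
    ring
  have hJK : A ⊔ B ≤ K := sup_le hAK hBK
  by_cases hKJ : K = A ⊔ B
  · -- `A` is normal
    have hAgle : ∀ g, Ag g ≤ A := by
      intro g
      by_contra hcon
      obtain ⟨a', ha', ha'A⟩ : ∃ a' ∈ Ag g, a' ∉ A := by
        by_contra h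
        push_neg at h
        exact hcon h
      obtain ⟨h₁, h₂, h₃, -, -⟩ := hgood g
      have hAgK : Ag g ≤ K := by
        intro y hy
        obtain ⟨a, ha, rfl⟩ := (hAgmem g y).1 hy
        exact hKn.conj_mem a (hAK ha) g
      have hKcard : Nat.card K = p ^ 5 := by rw [hKJ]; exact hJcard
      have hrel : A.relIndex K = p := by
        have h4 := Cfsg.Agent.Lib.OddLocal.card_mul_relIndex hAK
        rw [hKcard, hAcard] at h4
        have h5 : p ^ 4 * A.relIndex K = p ^ 4 * p := by rw [h4]; ring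
        exact Nat.eq_of_mul_eq_mul_left (by positivity) h5
      have hrel2 : A.relIndex (Ag g) ≤ p := by
        rw [← hrel]
        exact Subgroup.relIndex_le_of_le_right hAgK (by rw [hrel]; exact hp.ne_zero)
      have h5 := Cfsg.Agent.Lib.OddLocal.card_mul_relIndex (inf_le_right : A ⊓ Ag g ≤ Ag g)
      rw [inf_relIndex_right, h₃] at h5
      have h6 : p ^ 3 ≤ Nat.card ↥(A ⊓ Ag g) := by
        have h7 : p ^ 3 * p ≤ Nat.card ↥(A ⊓ Ag g) * p := by
          calc p ^ 3 * p = p ^ 4 := by ring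
            _ = _ := h5.symm
            _ ≤ _ := Nat.mul_le_mul_left _ hrel2
        exact Nat.le_of_mul_le_mul_right h7 hp.pos
      -- decompose `a'`
      have ha'J : a' ∈ A ⊔ B := by
        rw [← hKJ]
        exact hAgK ha'
      have ha'J' : a' ∈ ((A ⊔ B : Subgroup G) : Set G) := ha'J
      rw [Subgroup.mul_normal, Set.mem_mul] at ha'J'
      obtain ⟨a, ha, b', hb', rfl⟩ := ha'J'
      have hb'U : b' ∉ U := by
        intro h
        exact ha'A (mul_mem ha (hUA h))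
      have hBgen2 : B ≤ U ⊔ zpowers b' :=
        le_sup_zpowers U B hUB (by rw [hb, hUc]; ring) hb' hb'U
      have h8 : A ⊓ Ag g ≤ U := by
        rintro w ⟨hwA, hwG⟩
        have h9 : w * (a * b') = (a * b') * w := h₁ w hwG _ ha'
        have h10 : w * a = a * w := hAc w hwA a ha
        have h11 : w * b' = b' * w := by
          have h12 : a * (w * b') = a * (b' * w) := by
            calc a * (w * b') = (a * w) * b' := by group
              _ = (w * a) * b' := by rw [h10]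
              _ = w * (a * b') := by group
              _ = (a * b') * w := h9
              _ = a * (b' * w) := by group
          exact mul_left_cancel h12
        apply hAB w hwA
        apply hΩ w _ (hAe w hwA)
        rw [mem_centralizer_iff]
        intro v hv
        exact (comm_of_sup hBgen2 (fun d hd => hAc w hwA d (hUA hd)) h11 hv).symm
      have h9 := Subgroup.card_le_of_le h8
      rw [hUc] at h9
      have h10 := (Nat.pow_le_pow_iff_right hp1).1 (h6.trans h9)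
      omega
    apply hno
    refine ⟨A, ⟨fun a ha g => hAgle g ((hAgmem g _).2 ⟨a, ha, rfl⟩)⟩,
      ⟨⟨⟨fun u v => Subtype.ext (hAc u.1 u.2 v.1 v.2)⟩⟩, hAe⟩, hAcard⟩
  · -- `K` is large
    have hKge : p ^ 6 ≤ Nat.card K := by
      obtain ⟨k, hk⟩ := (IsPGroup.iff_card.1 (hG.to_subgroup K))
      have h1 : Nat.card ↥(A ⊔ B) ∣ Nat.card K := Subgroup.card_dvd_of_le hJK
      rw [hJcard, hk] at h1
      have h2 : 5 ≤ k := (Nat.pow_dvd_pow_iff_le_right hp1).1 h1
      have h3 : k ≠ 5 := by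
        rintro rfl
        apply hKJ
        symm
        exact Subgroup.eq_of_le_of_card_ge hJK (by rw [hk, hJcard])
      rw [hk]
      exact Nat.pow_le_pow_right hp.pos (by omega)
    have hUcm : IsMulCommutative U :=
      ⟨⟨fun u v => Subtype.ext (hUcomm u.1 u.2 v.1 v.2)⟩⟩
    have hUKne : U ≠ K := by
      intro h
      rw [← h, hUc] at hKge
      have h2 := (Nat.pow_le_pow_iff_right hp1).1 hKge
      omega
    obtain ⟨z, hzK, hzU, hWn, hWc, hWcard⟩ := extend_normal hG U K hUcm hUK hK2 hK3 hUKne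
    haveI := hWn
    rw [hUc] at hWcard
    have hWK : U ⊔ zpowers z ≤ K := sup_le hUK (by rwa [zpowers_le])
    have h1 := card_le_inf_centralizer K U z (fun k hk => hK1 k hk z hzK)
    rw [hUc] at h1
    have hNle : K ⊓ centralizer ({z} : Set G) ≤ K ⊓ centralizer ((U ⊔ zpowers z : Subgroup G) : Set G) := by
      rintro k ⟨hk, hkz⟩
      replace hkz : k * z = z * k := mem_centralizer_singleton_iff.1 hkz
      refine ⟨hk, mem_centralizer_iff.2 ?_⟩
      intro v hv
      exact (comm_of_sup le_rfl (hK2' k hk) hkz hv).symm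
    haveI hN'n : (K ⊓ centralizer ((U ⊔ zpowers z : Subgroup G) : Set G)).Normal :=
      Subgroup.normal_inf_normal _ _
    have hN'card : p ^ 4 ≤ Nat.card ↥(K ⊓ centralizer ((U ⊔ zpowers z : Subgroup G) : Set G)) := by
      have h2 := Subgroup.card_le_of_le hNle
      have h3 : p ^ 4 * p ^ 2 ≤ Nat.card ↥(K ⊓ centralizer ({z} : Set G)) * p ^ 2 := by
        calc p ^ 4 * p ^ 2 = p ^ 6 := by ring
          _ ≤ Nat.card K := hKge
          _ ≤ _ := h1
      exact (Nat.le_of_mul_le_mul_right h3 (by positivity)).trans h2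
    have hWN' : U ⊔ zpowers z ≤ K ⊓ centralizer ((U ⊔ zpowers z : Subgroup G) : Set G) := by
      refine le_inf hWK ?_
      intro w hw
      rw [mem_centralizer_iff]
      intro v hv
      have := hWc.is_comm.comm (⟨v, hv⟩ : ↥(U ⊔ zpowers z : Subgroup G)) ⟨w, hw⟩
      exact congrArg (Subtype.val : ↥(U ⊔ zpowers z : Subgroup G) → G) this
    have hne' : U ⊔ zpowers z ≠ K ⊓ centralizer ((U ⊔ zpowers z : Subgroup G) : Set G) := by
      intro h
      rw [← h, hWcard] at hN'card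
      have h2 : p ^ 4 ≤ p ^ 3 := by
        calc p ^ 4 ≤ p * p ^ 2 := hN'card
          _ = p ^ 3 := by ring
      have h3 := (Nat.pow_le_pow_iff_right hp1).1 h2
      omega
    obtain ⟨z', hz', -, hW'n, hW'c, hW'card⟩ := extend_normal hG (U ⊔ zpowers z)
      (K ⊓ centralizer ((U ⊔ zpowers z : Subgroup G) : Set G)) hWc hWN' inf_le_right
      (fun n hn => hK3 n hn.1) hne'
    apply hno
    refine ⟨_, hW'n, ⟨hW'c, ?_⟩, ?_⟩
    · intro y hy
      have h2 : (U ⊔ zpowers z) ⊔ zpowers z' ≤ K ⊓ centralizer ((U ⊔ zpowers z : Subgroup G) : Set G) :=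
        sup_le hWN' (by rwa [zpowers_le])
      exact hK3 y (h2 hy).1
    · rw [hW'card, hWcard]
      ring

end Core

section Main

variable {p : ℕ} [hpp : Fact p.Prime]

/-- The theorem, by induction on the order of the group. -/
theorem exists_normal_rank_four (hp2 : p ≠ 2) : ∀ (n : ℕ) (R : Type u) [Group R] [Finite R],
    Nat.card R = n → IsPGroup p R → ∀ E : Subgroup R, Cfsg.IsElementaryAbelian p E → Nat.card E = p ^ 4 →
    ∃ A : Subgroup R, A.Normal ∧ Cfsg.IsElementaryAbelian p A ∧ Nat.card A = p ^ 4 := by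
  intro n
  induction n using Nat.strong_induction_on with
  | _ n ih =>
  intro R _ _ hn hR E hE hE4
  obtain ⟨hEc, hEe⟩ := hE
  rcases eq_top_or_exists_le_coatom E with htop | ⟨M, hM, hEM⟩
  · exact ⟨E, by rw [htop]; infer_instance, ⟨hEc, hEe⟩, hE4⟩
  haveI : Group.IsNilpotent R := hR.isNilpotent
  haveI hMn : M.Normal := Cfsg.Agent.Lib.Basic.isCoatom_normal_of_isNilpotent hM
  have hlt : Nat.card M < n := by
    rw [← hn]
    exact lt_of_le_of_ne (Subgroup.card_le_card_group M) (fun h => hM.1 (Subgroup.eq_top_of_card_eq M h))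
  have hE' : Cfsg.IsElementaryAbelian p (E.subgroupOf M) := by
    refine ⟨⟨⟨fun u v => ?_⟩⟩, fun a ha => ?_⟩
    · apply Subtype.ext
      apply Subtype.ext
      have := hEc.is_comm.comm (⟨u.1.1, u.2⟩ : E) ⟨v.1.1, v.2⟩
      exact congrArg (Subtype.val : ↥E → R) this
    · apply Subtype.ext
      exact hEe a.1 ha
  have hE'c : Nat.card ↥(E.subgroupOf M) = p ^ 4 := by
    rw [Nat.card_congr (subgroupOfEquivOfLe hEM).toEquiv, hE4]
  obtain ⟨A₀, hA₀n, hA₀e, hA₀c⟩ := ih _ hlt M rfl (hR.to_subgroup M) _ hE' hE'c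
  have hAmem : ∀ x, x ∈ A₀.map M.subtype ↔ ∃ h : x ∈ M, (⟨x, h⟩ : M) ∈ A₀ := by
    intro x
    constructor
    · rintro ⟨a, ha, rfl⟩
      exact ⟨a.2, ha⟩
    · rintro ⟨h, hx⟩
      exact ⟨⟨x, h⟩, hx, rfl⟩
  refine core hp2 hR M (A₀.map M.subtype) (map_subtype_le A₀) ?_ ?_ ?_ ?_
  · intro m hm a ha
    obtain ⟨ham, ha'⟩ := (hAmem a).1 ha
    rw [hAmem]
    refine ⟨hMn.conj_mem a ham m, ?_⟩
    exact hA₀n.conj_mem _ ha' ⟨m, hm⟩
  · intro a ha b hb
    obtain ⟨ham, ha'⟩ := (hAmem a).1 ha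
    obtain ⟨hbm, hb'⟩ := (hAmem b).1 hb
    have := hA₀e.1.is_comm.comm (⟨_, ha'⟩ : A₀) ⟨_, hb'⟩
    exact congrArg (fun t : A₀ => (t.1.1 : R)) this
  · intro a ha
    obtain ⟨ham, ha'⟩ := (hAmem a).1 ha
    have := hA₀e.2 _ ha'
    exact congrArg (Subtype.val : ↥M → R) this
  · rw [← hA₀c]
    exact Nat.card_congr (A₀.equivMapOfInjective _ M.subtype_injective).symm.toEquiv

end Main

end Cfsg.Agent.Lib.RankFour
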