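import Cfsg.Agent.Lib.Basic.Hall
import Cfsg.Agent.Lib.Basic.FrobNorm
import Cfsg.Agent.Lib.PGroups.ExpP

/-!
# Three primes in a solvable group

A finite solvable group whose order is divisible by three distinct primes has an element whose order is the
product of two of them.
-/

set_option autoImplicit false

namespace Cfsg.Agent.Lib.PGroups

open Subgroup

universe u

variable {X : Type*} [Group X] [Finite X]

/-- A solvable group acting fixed-point-freely with two prime divisors has an element of order their product. -/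
theorem exists_orderOf_mul_of_fpf (K N : Subgroup X) [hNc : IsMulCommutative N] [hKs : Group.IsSolvable K]
    (hN1 : N ≠ ⊥) (hKN : K ≤ normalizer (N : Set X))
    (hfpf : ∀ k ∈ K, k ≠ 1 → N ⊓ centralizer {k} = ⊥)
    {a b : ℕ} (ha : a.Prime) (hb : b.Prime) (hab : a ≠ b) (had : a ∣ Nat.card K) (hbd : b ∣ Nat.card K)
    (hall : ∀ s : ℕ, s.Prime → s ∣ Nat.card K → s = a ∨ s = b) :
    ∃ g ∈ K, orderOf g = a * b := by
  classical
  have hnt : Nontrivial K := by
    by_contra h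
    rw [not_nontrivial_iff_subsingleton] at h
    rw [Nat.card_of_subsingleton (1 : K)] at had
    exact ha.one_lt.ne' (Nat.dvd_one.mp had)
  obtain ⟨t, M, ht, hMn, hM1, hMc, hMp⟩ := Cfsg.Agent.Lib.Basic.exists_normal_abelian_pSubgroup (G := K)
  haveI hft : Fact t.Prime := ⟨ht⟩
  have hcomm : ∀ x ∈ M, ∀ y ∈ M, (x : X) * y = y * x := by
    intro x hx y hy
    exact congrArg (fun z : K => (z : X)) (congrArg Subtype.val (hMc.is_comm.comm ⟨x, hx⟩ ⟨y, hy⟩))
  -- the elements of order dividing `t` of `M`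
  let A : Subgroup X :=
    { carrier := {x | ∃ h : x ∈ K, (⟨x, h⟩ : K) ∈ M ∧ x ^ t = 1}
      one_mem' := ⟨K.one_mem, M.one_mem, one_pow t⟩
      mul_mem' := by
        rintro x y ⟨h1, hx, hx'⟩ ⟨h2, hy, hy'⟩
        refine ⟨K.mul_mem h1 h2, M.mul_mem hx hy, ?_⟩
        have hc : Commute x y := hcomm _ hx _ hy
        rw [hc.mul_pow, hx', hy', one_mul]
      inv_mem' := by
        rintro x ⟨h1, hx, hx'⟩
        exact ⟨K.inv_mem h1, M.inv_mem hx, by rw [inv_pow, hx', inv_one]⟩ }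
  have hAK : A ≤ K := fun x hx => hx.1
  have hAM : ∀ x (hx : x ∈ A), (⟨x, hAK hx⟩ : K) ∈ M := fun x hx => hx.2.1
  have hAt : ∀ x ∈ A, x ^ t = 1 := fun x hx => hx.2.2
  have hAn : ∀ g ∈ K, ∀ x ∈ A, g * x * g⁻¹ ∈ A := by
    intro g hg x hx
    refine ⟨K.mul_mem (K.mul_mem hg (hAK hx)) (K.inv_mem hg), ?_, ?_⟩
    · exact hMn.conj_mem ⟨x, hAK hx⟩ (hAM x hx) ⟨g, hg⟩
    · rw [conj_pow, hAt x hx]; simp
  haveI hAc : IsMulCommutative A := ⟨⟨fun x y => Subtype.ext (hcomm _ (hAM x x.2) _ (hAM y y.2))⟩⟩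
  have hcyc : IsCyclic A := Cfsg.Agent.Lib.Basic.isCyclic_of_fpf A N hN1 (hAK.trans hKN)
    (fun a' ha' => hfpf a' (hAK ha')) (Or.inl hAc)
  obtain ⟨w, hw⟩ := hcyc.exists_generator
  -- `A` has order `t`
  have htM : t ∣ Nat.card M := by
    obtain ⟨n, hn⟩ := IsPGroup.iff_card.mp hMp
    have hne : n ≠ 0 := by
      rintro rfl
      rw [pow_zero] at hn
      exact hM1 (Subgroup.card_eq_one.mp hn)
    rw [hn]
    exact dvd_pow_self t hne
  obtain ⟨z, hz⟩ := exists_prime_orderOf_dvd_card' t htM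
  have hzo : orderOf (((z : K) : X)) = t := by
    rw [Subgroup.orderOf_coe, Subgroup.orderOf_coe]; exact hz
  have hzA : ((z : K) : X) ∈ A := ⟨(z : K).2, z.2, by rw [← hzo]; exact pow_orderOf_eq_one _⟩
  have hwo : orderOf (w : X) = t := by
    have h1 : (w : X) ^ t = 1 := hAt _ w.2
    have h2 : orderOf (w : X) ∣ t := orderOf_dvd_of_pow_eq_one h1
    rcases (Nat.dvd_prime ht).mp h2 with h3 | h3
    · exfalso
      have hw1 : (w : X) = 1 := orderOf_eq_one_iff.mp h3
      have hw1' : w = 1 := Subtype.ext hw1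
      have hz1 : (⟨_, hzA⟩ : A) ∈ zpowers w := hw _
      rw [hw1', zpowers_one_eq_bot, Subgroup.mem_bot] at hz1
      have hz2 : ((z : K) : X) = 1 := congrArg Subtype.val hz1
      rw [hz2, orderOf_one] at hzo
      exact ht.one_lt.ne hzo
    · exact h3
  have hAcard : Nat.card A = t := by
    rw [← hwo, Subgroup.orderOf_coe]
    exact (orderOf_eq_card_of_forall_mem_zpowers hw).symm
  -- the other prime
  obtain ⟨t', ht', hne, htt'⟩ : ∃ t' : ℕ, t'.Prime ∧ t' ≠ t ∧ t * t' = a * b := by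
    have htK : t ∣ Nat.card K := htM.trans (Subgroup.card_subgroup_dvd_card M)
    rcases hall t ht htK with rfl | rfl
    · exact ⟨b, hb, hab.symm, rfl⟩
    · exact ⟨a, ha, hab, mul_comm _ _⟩
  have ht'K : t' ∣ Nat.card K := by
    have h1 : t' ∣ a * b := ⟨t, by rw [← htt', mul_comm]⟩
    rcases (Nat.Prime.dvd_mul ht').mp h1 with h2 | h2
    · rwa [(Nat.prime_dvd_prime_iff_eq ht' ha).mp h2]
    · rwa [(Nat.prime_dvd_prime_iff_eq ht' hb).mp h2]
  haveI hft' : Fact t'.Prime := ⟨ht'⟩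
  obtain ⟨y', hy'⟩ := exists_prime_orderOf_dvd_card' t' ht'K
  obtain ⟨y, hyK, hy⟩ : ∃ y ∈ K, orderOf y = t' := ⟨y', y'.2, by rw [Subgroup.orderOf_coe]; exact hy'⟩
  -- the subgroup `A⟨y⟩`
  let C : Subgroup X := A ⊔ zpowers y
  have hCK : C ≤ K := sup_le hAK (by rw [zpowers_le]; exact hyK)
  have hcop : Nat.Coprime t t' := (Nat.coprime_primes ht ht').mpr hne.symm
  have hCcard : Nat.card C = t * t' := by
    apply le_antisymm
    · have hle : zpowers y ≤ normalizer (A : Set X) := by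
        rw [zpowers_le]
        refine mem_normalizer_iff.mpr fun x => ⟨fun hx => hAn y hyK x hx, fun hx => ?_⟩
        have := hAn y⁻¹ (K.inv_mem hyK) _ hx
        simpa [mul_assoc] using this
      have h1 : Nat.card C ≤ Nat.card A * Nat.card (zpowers y) := card_sup_le_of_le_normalizer hle
      rw [hAcard, Nat.card_zpowers, hy] at h1
      exact h1
    · have h1 : t ∣ Nat.card C := by
        rw [← hAcard]
        exact Subgroup.card_dvd_of_le le_sup_left
      have h2 : t' ∣ Nat.card C := by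
        rw [← hy, ← Nat.card_zpowers]
        exact Subgroup.card_dvd_of_le le_sup_right
      exact Nat.le_of_dvd Nat.card_pos (hcop.mul_dvd_of_dvd_of_dvd h1 h2)
  have hCcyc : IsCyclic C := Cfsg.Agent.Lib.Basic.isCyclic_of_fpf C N hN1 (hCK.trans hKN)
    (fun a' ha' => hfpf a' (hCK ha')) (Or.inr ⟨t, t', ht, ht', hCcard⟩)
  letI : CommGroup C := IsCyclic.commGroup
  have hwC : (w : X) ∈ C := (le_sup_left : A ≤ C) w.2
  have hyC : y ∈ C := (le_sup_right : zpowers y ≤ C) (mem_zpowers y)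
  have hc : Commute (w : X) y := by
    have := mul_comm (⟨w, hwC⟩ : C) ⟨y, hyC⟩
    exact congrArg Subtype.val this
  refine ⟨(w : X) * y, K.mul_mem (hAK w.2) hyK, ?_⟩
  rw [hc.orderOf_mul_eq_mul_orderOf_of_coprime (by rw [hwo, hy]; exact hcop), hwo, hy, htt']

/-- The helper: with a normal abelian `s`-subgroup. -/
theorem three_primes_aux [Group.IsSolvable X] {a b s : ℕ} (ha : a.Prime)
    (hb : b.Prime) (hs : s.Prime) (hab : a ≠ b) (has : a ≠ s) (hbs : b ≠ s) (had : a ∣ Nat.card X)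
    (hbd : b ∣ Nat.card X) (N : Subgroup X) [hNn : N.Normal] [hNc : IsMulCommutative N] (hN1 : N ≠ ⊥)
    (hNs : IsPGroup s N) :
    ∃ g : X, orderOf g = a * b ∨ orderOf g = a * s ∨ orderOf g = b * s := by
  classical
  haveI hfs : Fact s.Prime := ⟨hs⟩
  have hne : Nat.card X ≠ 0 := Nat.card_pos.ne'
  -- the Hall `{a, b}`-subgroup
  set A := ordProj[a] (Nat.card X) with hA
  set Y := ordCompl[a] (Nat.card X) with hY
  set B := ordProj[b] Y with hB
  set Z := ordCompl[b] Y with hZ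
  have hYne : Y ≠ 0 := (Nat.ordCompl_pos a hne).ne'
  have e1 : A * Y = Nat.card X := Nat.ordProj_mul_ordCompl_eq_self _ _
  have e2 : B * Z = Y := Nat.ordProj_mul_ordCompl_eq_self _ _
  have haY : ¬ a ∣ Y := Nat.not_dvd_ordCompl ha hne
  have hbZ : ¬ b ∣ Z := Nat.not_dvd_ordCompl hb hYne
  have haZ : ¬ a ∣ Z := fun h => haY (e2 ▸ h.trans (dvd_mul_left _ _))
  have hcop : Nat.Coprime (A * B) Z := by
    apply Nat.Coprime.mul_left
    · exact Nat.Coprime.pow_left _ ((Nat.Prime.coprime_iff_not_dvd ha).mpr haZ)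
    · exact Nat.Coprime.pow_left _ ((Nat.Prime.coprime_iff_not_dvd hb).mpr hbZ)
  have hcard : Nat.card X = (A * B) * Z := by rw [mul_assoc, e2, e1]
  obtain ⟨K, hK⟩ := Cfsg.Agent.Lib.Basic.hall_exists _ (A * B) Z rfl hcard hcop
  have hfacA : (Nat.card X).factorization a ≠ 0 :=
    (Nat.Prime.factorization_pos_of_dvd ha hne had).ne'
  have hbY : b ∣ Y := by
    have h1 : b ∣ A * Y := e1 ▸ hbd
    rcases (Nat.Prime.dvd_mul hb).mp h1 with h2 | h2
    · exact absurd ((Nat.prime_dvd_prime_iff_eq hb ha).mp (Nat.Prime.dvd_of_dvd_pow hb h2)) hab.symm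
    · exact h2
  have hfacB : Y.factorization b ≠ 0 := (Nat.Prime.factorization_pos_of_dvd hb hYne hbY).ne'
  have haK : a ∣ Nat.card K := by
    rw [hK]
    exact (dvd_pow_self a hfacA).trans (dvd_mul_right _ _)
  have hbK : b ∣ Nat.card K := by
    rw [hK]
    exact (dvd_pow_self b hfacB).trans (dvd_mul_left _ _)
  have hallK : ∀ t : ℕ, t.Prime → t ∣ Nat.card K → t = a ∨ t = b := by
    intro t ht hd
    rw [hK] at hd
    rcases (Nat.Prime.dvd_mul ht).mp hd with h | h
    · exact Or.inl ((Nat.prime_dvd_prime_iff_eq ht ha).mp (Nat.Prime.dvd_of_dvd_pow ht h))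
    · exact Or.inr ((Nat.prime_dvd_prime_iff_eq ht hb).mp (Nat.Prime.dvd_of_dvd_pow ht h))
  by_cases hcomm : ∃ k ∈ K, k ≠ 1 ∧ ∃ v ∈ N, v ≠ 1 ∧ k * v = v * k
  · obtain ⟨k, hkK, hk, v, hvN, hv1, hkv⟩ := hcomm
    have hko : orderOf k ≠ 1 := fun h => hk (orderOf_eq_one_iff.mp h)
    obtain ⟨u, hu, huk⟩ := Nat.exists_prime_and_dvd hko
    have hud : u ∣ Nat.card K := huk.trans (Subgroup.orderOf_dvd_natCard K hkK)
    have hvo : orderOf v ≠ 1 := fun h => hv1 (orderOf_eq_one_iff.mp h)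
    obtain ⟨m, hm⟩ := hNs ⟨v, hvN⟩
    have hm' : v ^ s ^ m = 1 := congrArg Subtype.val hm
    have hvd : orderOf v ∣ s ^ m := orderOf_dvd_of_pow_eq_one hm'
    obtain ⟨w, hw, hwv⟩ := Nat.exists_prime_and_dvd hvo
    have hws : w = s := (Nat.prime_dvd_prime_iff_eq hw hs).mp (Nat.Prime.dvd_of_dvd_pow hw (hwv.trans hvd))
    subst hws
    have hk1 : orderOf (k ^ (orderOf k / u)) = u := orderOf_pow_orderOf_div (orderOf_pos k).ne' huk
    have hv1' : orderOf (v ^ (orderOf v / w)) = w := orderOf_pow_orderOf_div (orderOf_pos v).ne' hwv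
    have hc : Commute (k ^ (orderOf k / u)) (v ^ (orderOf v / w)) :=
      (show Commute k v from hkv).pow_pow _ _
    have hus : u ≠ w := by
      rcases hallK u hu hud with rfl | rfl
      · exact has
      · exact hbs
    have ho := hc.orderOf_mul_eq_mul_orderOf_of_coprime (by
      rw [hk1, hv1']; exact (Nat.coprime_primes hu hs).mpr hus)
    rw [hk1, hv1'] at ho
    refine ⟨k ^ (orderOf k / u) * v ^ (orderOf v / w), ?_⟩
    rcases hallK u hu hud with rfl | rfl
    · exact Or.inr (Or.inl ho)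
    · exact Or.inr (Or.inr ho)
  · push Not at hcomm
    have hfpf : ∀ k ∈ K, k ≠ 1 → N ⊓ centralizer {k} = ⊥ := by
      intro k hkK hk1
      rw [eq_bot_iff]
      rintro v ⟨hvN, hvC⟩
      rw [Subgroup.mem_bot]
      by_contra hv1
      have h2 : v * k = k * v := Subgroup.mem_centralizer_singleton_iff.mp hvC
      exact hcomm k hkK hk1 v hvN hv1 h2.symm
    obtain ⟨g, -, hg⟩ := exists_orderOf_mul_of_fpf K N hN1 (by
      rw [normalizer_eq_top_iff.mpr hNn]; exact le_top) hfpf ha hb hab haK hbK hallK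
    exact ⟨g, Or.inl hg⟩

/-- **Three primes.** A finite solvable group whose order is divisible by three distinct primes has an element
whose order is the product of two of them. -/
theorem three_primes [Group.IsSolvable X] {p q r : ℕ} (hp : p.Prime) (hq : q.Prime) (hr : r.Prime)
    (hpq : p ≠ q) (hpr : p ≠ r) (hqr : q ≠ r) (hpd : p ∣ Nat.card X) (hqd : q ∣ Nat.card X) (hrd : r ∣ Nat.card X) :
    ∃ g : X, orderOf g = p * q ∨ orderOf g = p * r ∨ orderOf g = q * r := by
  classical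
  -- the Hall `{p, q, r}`-subgroup
  have hne : Nat.card X ≠ 0 := Nat.card_pos.ne'
  set A := ordProj[p] (Nat.card X) with hA
  set Y := ordCompl[p] (Nat.card X) with hY
  set B := ordProj[q] Y with hB
  set Y' := ordCompl[q] Y with hY'
  set C := ordProj[r] Y' with hC
  set Z := ordCompl[r] Y' with hZ
  have hYne : Y ≠ 0 := (Nat.ordCompl_pos p hne).ne'
  have hY'ne : Y' ≠ 0 := (Nat.ordCompl_pos q hYne).ne'
  have e1 : A * Y = Nat.card X := Nat.ordProj_mul_ordCompl_eq_self _ _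
  have e2 : B * Y' = Y := Nat.ordProj_mul_ordCompl_eq_self _ _
  have e3 : C * Z = Y' := Nat.ordProj_mul_ordCompl_eq_self _ _
  have hpY : ¬ p ∣ Y := Nat.not_dvd_ordCompl hp hne
  have hqY' : ¬ q ∣ Y' := Nat.not_dvd_ordCompl hq hYne
  have hrZ : ¬ r ∣ Z := Nat.not_dvd_ordCompl hr hY'ne
  have hpZ : ¬ p ∣ Z := fun h => hpY (by
    rw [← e2, ← e3]; exact (h.trans (dvd_mul_left _ _)).trans (dvd_mul_left _ _))
  have hqZ : ¬ q ∣ Z := fun h => hqY' (by rw [← e3]; exact h.trans (dvd_mul_left _ _))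
  have hcop : Nat.Coprime (A * B * C) Z := by
    refine Nat.Coprime.mul_left (Nat.Coprime.mul_left ?_ ?_) ?_
    · exact Nat.Coprime.pow_left _ ((Nat.Prime.coprime_iff_not_dvd hp).mpr hpZ)
    · exact Nat.Coprime.pow_left _ ((Nat.Prime.coprime_iff_not_dvd hq).mpr hqZ)
    · exact Nat.Coprime.pow_left _ ((Nat.Prime.coprime_iff_not_dvd hr).mpr hrZ)
  have hcard : Nat.card X = (A * B * C) * Z := by
    rw [mul_assoc, mul_assoc, e3, e2, e1]
  obtain ⟨H, hH⟩ := Cfsg.Agent.Lib.Basic.hall_exists _ (A * B * C) Z rfl hcard hcop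
  have hqY : q ∣ Y := by
    have h1 : q ∣ A * Y := e1 ▸ hqd
    rcases (Nat.Prime.dvd_mul hq).mp h1 with h2 | h2
    · exact absurd ((Nat.prime_dvd_prime_iff_eq hq hp).mp (Nat.Prime.dvd_of_dvd_pow hq h2)) hpq.symm
    · exact h2
  have hrY : r ∣ Y := by
    have h1 : r ∣ A * Y := e1 ▸ hrd
    rcases (Nat.Prime.dvd_mul hr).mp h1 with h2 | h2
    · exact absurd ((Nat.prime_dvd_prime_iff_eq hr hp).mp (Nat.Prime.dvd_of_dvd_pow hr h2)) hpr.symm
    · exact h2
  have hrY' : r ∣ Y' := by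
    have h1 : r ∣ B * Y' := e2 ▸ hrY
    rcases (Nat.Prime.dvd_mul hr).mp h1 with h2 | h2
    · exact absurd ((Nat.prime_dvd_prime_iff_eq hr hq).mp (Nat.Prime.dvd_of_dvd_pow hr h2)) hqr.symm
    · exact h2
  have hpH : p ∣ Nat.card H := by
    rw [hH]
    exact (dvd_pow_self p (Nat.Prime.factorization_pos_of_dvd hp hne hpd).ne').trans
      ((dvd_mul_right _ _).trans (dvd_mul_right _ _))
  have hqH : q ∣ Nat.card H := by
    rw [hH]
    exact (dvd_pow_self q (Nat.Prime.factorization_pos_of_dvd hq hYne hqY).ne').trans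
      ((dvd_mul_left _ _).trans (dvd_mul_right _ _))
  have hrH : r ∣ Nat.card H := by
    rw [hH]
    exact (dvd_pow_self r (Nat.Prime.factorization_pos_of_dvd hr hY'ne hrY').ne').trans (dvd_mul_left _ _)
  have hallH : ∀ t : ℕ, t.Prime → t ∣ Nat.card H → t = p ∨ t = q ∨ t = r := by
    intro t ht hd
    rw [hH] at hd
    rcases (Nat.Prime.dvd_mul ht).mp hd with h | h
    · rcases (Nat.Prime.dvd_mul ht).mp h with h | h
      · exact Or.inl ((Nat.prime_dvd_prime_iff_eq ht hp).mp (Nat.Prime.dvd_of_dvd_pow ht h))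
      · exact Or.inr (Or.inl ((Nat.prime_dvd_prime_iff_eq ht hq).mp (Nat.Prime.dvd_of_dvd_pow ht h)))
    · exact Or.inr (Or.inr ((Nat.prime_dvd_prime_iff_eq ht hr).mp (Nat.Prime.dvd_of_dvd_pow ht h)))
  have hnt : Nontrivial H := by
    by_contra h
    rw [not_nontrivial_iff_subsingleton] at h
    rw [Nat.card_of_subsingleton (1 : H)] at hpH
    exact hp.one_lt.ne' (Nat.dvd_one.mp hpH)
  obtain ⟨s, N, hs, hNn, hN1, hNc, hNp⟩ := Cfsg.Agent.Lib.Basic.exists_normal_abelian_pSubgroup (G := H)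
  haveI := hNn
  haveI := hNc
  have hsH : s ∣ Nat.card H := by
    haveI : Fact s.Prime := ⟨hs⟩
    obtain ⟨n, hn⟩ := IsPGroup.iff_card.mp hNp
    have hne : n ≠ 0 := by
      rintro rfl
      rw [pow_zero] at hn
      exact hN1 (Subgroup.card_eq_one.mp hn)
    have h1 : s ∣ Nat.card N := by rw [hn]; exact dvd_pow_self s hne
    exact h1.trans (Subgroup.card_subgroup_dvd_card N)
  have hup : ∀ (g : H) (m : ℕ), orderOf g = m → orderOf (g : X) = m := by
    intro g m hg
    rw [Subgroup.orderOf_coe]; exact hg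
  rcases hallH s hs hsH with rfl | rfl | rfl
  · obtain ⟨g, hg⟩ := three_primes_aux hq hr hs hqr hpq.symm hpr.symm hqH hrH N hN1 hNp
    refine ⟨(g : H), ?_⟩
    rcases hg with hg | hg | hg
    · exact Or.inr (Or.inr (hup _ _ hg))
    · exact Or.inl (by rw [hup _ _ hg, mul_comm])
    · exact Or.inr (Or.inl (by rw [hup _ _ hg, mul_comm]))
  · obtain ⟨g, hg⟩ := three_primes_aux hp hr hs hpr hpq hqr.symm hpH hrH N hN1 hNp
    refine ⟨(g : H), ?_⟩
    rcases hg with hg | hg | hg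
    · exact Or.inr (Or.inl (hup _ _ hg))
    · exact Or.inl (hup _ _ hg)
    · exact Or.inr (Or.inr (by rw [hup _ _ hg, mul_comm]))
  · obtain ⟨g, hg⟩ := three_primes_aux hp hq hs hpq hpr hqr hpH hqH N hN1 hNp
    refine ⟨(g : H), ?_⟩
    rcases hg with hg | hg | hg
    · exact Or.inl (hup _ _ hg)
    · exact Or.inr (Or.inl (hup _ _ hg))
    · exact Or.inr (Or.inr (hup _ _ hg))

end Cfsg.Agent.Lib.PGroups
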